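import Cfsg.Agent.Lib.Geometric.UnitaryMonomial.Basic
import Cfsg.Agent.Lib.Forms.FiniteField

/-!
The action of the stabiliser of a coordinate line on the perpendicular hyperplane, and the unit
vectors whose quasi-reflections it contains.
-/

set_option autoImplicit false

namespace CfsgLib.UMon

open CfsgLib.Geometric Finset Matrix

variable {ι : Type} [Fintype ι] [DecidableEq ι] {F : Type*} [Field F] [Fintype F] [DecidableEq F]
variable {σ : F ≃+* F} {q : ℕ}

local notation "e[" j "]" => (Pi.single j (1 : _) : ι → _)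

lemma commute_rf {o : ι} {y : GL ι F} (hy : y ∈ GUs σ) (hyo : ap y e[o] = e[o]) {γ : F}
    (hγ : γ ∈ cir σ) : Commute y (rf σ (e[o] : ι → F) γ) := by
  have h := conj_rf hy (hb_single_self o) hγ
  rw [hyo, mul_inv_eq_iff_eq_mul] at h
  exact h

omit [DecidableEq ι] [DecidableEq F] in
lemma exists_norm (hσ : IsConj σ q) {s : F} (hs : σ s = s) : ∃ ν, ν * σ ν = s := by
  classical
  obtain ⟨ν, hν⟩ := CfsgLib.Forms.exists_norm_eq (σ : F →+* F) (fun h => by
    have h1 : fxd σ = univ := by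
      ext x; simpa [fxd] using RingHom.congr_fun h x
    have h2 := card_fxd hσ
    rw [h1, card_univ, hσ.card] at h2
    nlinarith [hσ.two_le]) hσ.invol s hs
  exact ⟨ν, by rw [mul_comm]; exact hν⟩

/-- The isometries of `e o`'s perpendicular hyperplane induced by `X`. -/
def quot (σ : F ≃+* F) (X : Subgroup (GL ι F)) (o : ι) : Subgroup (GL ι F) where
  carrier := {y | y ∈ GUs σ ∧ ap y e[o] = e[o] ∧ ∃ γ ∈ cir σ, y * rf σ (e[o] : ι → F) γ ∈ X}
  one_mem' := ⟨one_mem _, ap_one _, 1, one_mem_cir, by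
    have : rf σ (e[o] : ι → F) 1 = 1 := gl_ext fun x => by
      rw [ap_rf (hb_single_self o) one_mem_cir, ap_one]; simp
    rw [this, mul_one]; exact one_mem X⟩
  mul_mem' := by
    rintro a b ⟨ha, hao, γ, hγ, hax⟩ ⟨hb', hbo, δ, hδ, hbx⟩
    refine ⟨mul_mem ha hb', by rw [ap_mul, hbo, hao], γ * δ, mul_mem_cir hγ hδ, ?_⟩
    have := mul_mem hax hbx
    rw [show a * rf σ (e[o] : ι → F) γ * (b * rf σ (e[o] : ι → F) δ) =
      a * (rf σ (e[o] : ι → F) γ * b) * rf σ (e[o] : ι → F) δ by group,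
      ← (commute_rf hb' hbo hγ).eq] at this
    rw [← rf_mul (hb_single_self o) hγ hδ]
    convert this using 1
    group
  inv_mem' := by
    rintro a ⟨ha, hao, γ, hγ, hax⟩
    refine ⟨inv_mem ha, by conv_lhs => rw [← hao, ap_inv_ap], γ⁻¹, inv_mem_cir hγ, ?_⟩
    have hr : rf σ (e[o] : ι → F) γ⁻¹ = (rf σ (e[o] : ι → F) γ)⁻¹ := by
      refine eq_inv_of_mul_eq_one_left ?_
      rw [rf_mul (hb_single_self o) (inv_mem_cir hγ) hγ, inv_mul_cancel₀ (ne_zero_of_mem_cir hγ)]
      exact gl_ext fun x => by rw [ap_rf (hb_single_self o) one_mem_cir, ap_one]; simp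
    rw [hr, ← _root_.mul_inv_rev, ← (commute_rf ha hao hγ).eq]
    exact inv_mem hax

variable {X : Subgroup (GL ι F)} {o : ι}

lemma mem_quot {y : GL ι F} : y ∈ quot σ X o ↔
    y ∈ GUs σ ∧ ap y e[o] = e[o] ∧ ∃ γ ∈ cir σ, y * rf σ (e[o] : ι → F) γ ∈ X := Iff.rfl

lemma quot_apply_o {y : GL ι F} (hy : y ∈ quot σ X o) (x : ι → F) : ap y x o = x o := by
  have h := hb_ap hy.1 x (e[o] : ι → F)
  rwa [hy.2.1, hb_single_right, hb_single_right, map_one, mul_one, mul_one] at h

lemma mo_mem_quot (hM : MonIn σ X) {π : Equiv.Perm ι} {d : ι → F} (hπ : π o = o)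
    (hd : ∀ i, d i ∈ cir σ) (hdo : d o = 1) : mo π d ∈ quot σ X o := by
  have hd0 := fun i => ne_zero_of_mem_cir (hd i)
  have hπ' : π.symm o = o := by rw [Equiv.symm_apply_eq, hπ]
  refine ⟨mo_mem_GUs hd, funext fun m => ?_, ?_⟩
  · rw [ap_mo hd0]
    by_cases hm : m = o
    · subst hm; simp [hπ', hdo]
    · have : π.symm m ≠ o := fun e => hm (by rw [← π.apply_symm_apply m, e, hπ])
      simp [hm, this]
  set P := ((Equiv.Perm.sign π : ℤ) : F) * ∏ i, d i with hP
  have hPc : P ∈ cir σ := mul_mem_cir (by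
    rcases Int.units_eq_one_or (Equiv.Perm.sign π) with h | h
    · simpa [h] using one_mem_cir
    · simpa [h] using neg_mem_cir (σ := σ) one_mem_cir) (prod_mem_cir _ _ fun i _ => hd i)
  refine ⟨P⁻¹, inv_mem_cir hPc, ?_⟩
  have hd' : ∀ i, Function.update d o P⁻¹ i ∈ cir σ := fun i => by
    by_cases h : i = o
    · subst h; simpa using inv_mem_cir hPc
    · simp [h, hd]
  have he : mo π d * rf σ (e[o] : ι → F) P⁻¹ = mo π (Function.update d o P⁻¹) := by
    have hu : ∀ i, (Function.update (1 : ι → F) o P⁻¹) i ≠ 0 := fun i => by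
      by_cases h : i = o
      · subst h; simpa using ne_zero_of_mem_cir hPc
      · simp [h]
    rw [rf_single (inv_mem_cir hPc)]
    refine gl_ext fun x => funext fun m => ?_
    rw [ap_mul, ap_mo hd0, ap_dia hu, ap_mo fun i => ne_zero_of_mem_cir (hd' i)]
    by_cases hm : m = o
    · subst hm; simp [hπ', hdo]
    · have : π.symm m ≠ o := fun e => hm (by rw [← π.apply_symm_apply m, e, hπ])
      simp [hm, this]
  rw [he]
  refine mo_mem hM hd' ?_
  have e1 : ∏ i ∈ univ \ {o}, d i = ∏ i, d i := by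
    rw [← prod_sdiff (subset_univ {o}), prod_singleton, hdo, mul_one]
  rw [Finset.prod_update_of_mem (mem_univ o), e1]
  calc _ = P⁻¹ * P := by rw [hP]; ring
    _ = 1 := inv_mul_cancel₀ (ne_zero_of_mem_cir hPc)

/-- A unit vector of the hyperplane with all its quasi-reflections induced by `X`. -/
def InR (σ : F ≃+* F) (X : Subgroup (GL ι F)) (o : ι) (u : ι → F) : Prop :=
  hb σ u u = 1 ∧ u o = 0 ∧ ∀ μ ∈ cir σ, rf σ u μ ∈ quot σ X o

lemma InR.ap {u : ι → F} (h : InR σ X o u) {y : GL ι F} (hy : y ∈ quot σ X o) :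
    InR σ X o (ap y u) := by
  refine ⟨(hb_ap hy.1 u u).trans h.1, by rw [quot_apply_o hy, h.2.1], fun μ hμ => ?_⟩
  rw [← conj_rf hy.1 h.1 hμ]
  exact mul_mem (mul_mem hy (h.2.2 μ hμ)) (inv_mem hy)

lemma InR.smul {u : ι → F} (h : InR σ X o u) {c : F} (hc : c ∈ cir σ) : InR σ X o (c • u) := by
  refine ⟨?_, by simp [h.2.1], fun μ hμ => by rw [rf_smul h.1 hc hμ]; exact h.2.2 μ hμ⟩
  rw [hb_smul_left, hb_smul_right, h.1, mul_one]
  exact mem_cir.mp hc

lemma InR.moved {u : ι → F} (h : InR σ X o u) (hM : MonIn σ X) {π : Equiv.Perm ι} {d : ι → F}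
    (hπ : π o = o) (hd : ∀ i, d i ∈ cir σ) (hdo : d o = 1) :
    InR σ X o (fun m => d m * u (π.symm m)) := by
  have := h.ap (mo_mem_quot hM hπ hd hdo)
  rwa [show CfsgLib.Geometric.ap (mo π d) u = _ from
    funext fun m => ap_mo (fun i => ne_zero_of_mem_cir (hd i)) u m] at this

lemma inR_single (hM : MonIn σ X) {a : ι} (ha : a ≠ o) : InR σ X o (e[a] : ι → F) := by
  refine ⟨hb_single_self a, by simp [Ne.symm ha], fun μ hμ => ?_⟩
  rw [rf_single hμ]
  exact mo_mem_quot hM rfl (fun i => by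
    by_cases h : i = a
    · subst h; simpa using hμ
    · simp [h, one_mem_cir]) (by simp [Ne.symm ha])

lemma inR_of_wt_one (hM : MonIn σ X) {u : ι → F} (hu : hb σ u u = 1) (huo : u o = 0)
    (h : wt u ≤ 1) : InR σ X o u := by
  obtain ⟨a, ha⟩ : ∃ a, u a ≠ 0 := by
    by_contra hc
    push Not at hc
    rw [show u = 0 from funext hc, hb_zero_left] at hu
    exact zero_ne_one hu
  have he : u = u a • e[a] := funext fun i => by
    by_cases hi : i = a
    · subst hi; simp
    · simp [hi]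
      by_contra h0
      exact hi (card_le_one.mp h i (by simp [h0]) a (by simp [ha]))
  have hao : a ≠ o := fun e => ha (e ▸ huo)
  rw [he] at hu ⊢
  refine (inR_single hM hao).smul ?_
  rw [hb_smul_left, hb_smul_right, hb_single_self, mul_one] at hu
  exact mem_cir.mpr hu

/-- A non-monomial element fixing the line at `o` gives a unit vector with two coordinates. -/
lemma exists_inR_two (hX : X ≤ GUs σ) (hM : MonIn σ X) {z : GL ι F} (hz : z ∈ X) (hzn : ¬ IsMon z)
    {γ : F} (hγ : ap z e[o] = γ • e[o]) : ∃ u, InR σ X o u ∧ 2 ≤ wt u := by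
  have hγc : γ ∈ cir σ := by
    have h := hb_ap (hX hz) (e[o] : ι → F) e[o]
    rw [hγ, hb_smul_left, hb_smul_right, hb_single_self, mul_one] at h
    exact mem_cir.mpr h
  set R := rf σ (e[o] : ι → F) γ⁻¹ with hR
  set y := z * R with hy
  have hRo : ap R e[o] = γ⁻¹ • e[o] := by
    rw [hR, ap_rf (hb_single_self o) (inv_mem_cir hγc), hb_single_self]
    module
  have hyo : ap y e[o] = e[o] := by
    rw [hy, ap_mul, hRo, ap_smul, hγ, smul_smul, inv_mul_cancel₀ (ne_zero_of_mem_cir hγc), one_smul]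
  have hyq : y ∈ quot σ X o := by
    refine ⟨mul_mem (hX hz) (by
      rw [hR, rf_single (inv_mem_cir hγc)]
      exact mo_mem_GUs fun i => by
        by_cases h : i = o
        · subst h; simpa using inv_mem_cir hγc
        · simp [h, one_mem_cir]), hyo, γ, hγc, ?_⟩
    have h1 : R * rf σ (e[o] : ι → F) γ = 1 := by
      rw [hR, rf_mul (hb_single_self o) (inv_mem_cir hγc) hγc,
        inv_mul_cancel₀ (ne_zero_of_mem_cir hγc)]
      exact gl_ext fun x => by rw [ap_rf (hb_single_self o) one_mem_cir, ap_one]; simp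
    rw [hy, mul_assoc, h1, mul_one]
    exact hz
  have hyn : ¬ IsMon y := by
    intro h
    refine hzn ?_
    have hRm : IsMon R := by rw [hR, rf_single (inv_mem_cir hγc)]; exact isMon_mo _ _
    have := h.mul hRm.inv
    rwa [hy, mul_inv_cancel_right] at this
  obtain ⟨a, i, j, hij, hi, hj⟩ := exists_two_nonzero hyn
  have hao : a ≠ o := fun e => by
    subst e
    rw [hyo] at hi hj
    simp [Pi.single_apply] at hi hj
    exact hij (hi.trans hj.symm)
  refine ⟨_, (inR_single hM hao).ap hyq, ?_⟩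
  exact one_lt_card.mpr ⟨i, by simp [hi], j, by simp [hj], hij⟩

omit [Fintype ι] in
/-- A permutation fixing `o` between two lists of distinct points. -/
lemma exists_perm : ∀ {k : ℕ} (f g : Fin k → ι), Function.Injective f → Function.Injective g →
    (∀ i, f i ≠ o) → (∀ i, g i ≠ o) → ∃ π : Equiv.Perm ι, π o = o ∧ ∀ i, π (f i) = g i
  | 0, _, _, _, _, _, _ => ⟨1, rfl, fun i => i.elim0⟩
  | k + 1, f, g, hf, hg, hfo, hgo => by
    obtain ⟨π, hπ, h⟩ := exists_perm (fun i : Fin k => f i.castSucc) (fun i => g i.castSucc)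
      (hf.comp (Fin.castSucc_injective k)) (hg.comp (Fin.castSucc_injective k))
      (fun i => hfo _) fun i => hgo _
    refine ⟨Equiv.swap (π (f (Fin.last k))) (g (Fin.last k)) * π, ?_, fun i => ?_⟩
    · rw [Equiv.Perm.mul_apply, hπ, Equiv.swap_apply_of_ne_of_ne _ (Ne.symm (hgo _))]
      rw [← hπ]
      exact fun e => hfo (Fin.last k) (π.injective (by rw [hπ] at e ⊢; exact e.symm))
    · rw [Equiv.Perm.mul_apply]
      refine Fin.lastCases ?_ (fun i => ?_) i
      · rw [Equiv.swap_apply_left]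
      · rw [h, Equiv.swap_apply_of_ne_of_ne]
        · rw [← h]
          exact fun e => absurd (hf (π.injective e)) (Fin.castSucc_lt_last i).ne
        · exact fun e => absurd (hg e) (Fin.castSucc_lt_last i).ne

end CfsgLib.UMon
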