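import Cfsg.Agent.Lib.Geometric.UnitaryMonomial.Reflections

/-!
The induced group has all quasi-reflections of the hyperplane.
-/

set_option autoImplicit false

namespace CfsgLib.UMon

open CfsgLib.Geometric Finset Matrix

variable {ι : Type} [Fintype ι] [DecidableEq ι] {F : Type*} [Field F] [Fintype F] [DecidableEq F]
variable {σ : F ≃+* F} {q : ℕ}

local notation "e[" j "]" => (Pi.single j (1 : _) : ι → _)

variable {X : Subgroup (GL ι F)} {o : ι} (hσ : IsConj σ q) (hM : MonIn σ X)
include hσ hM

/-- All unit vectors of weight at most two. -/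
lemma inR_small {u₀ : ι → F} (h₀ : InR σ X o u₀) (hw₀ : 2 ≤ wt u₀) {u : ι → F}
    (hu : hb σ u u = 1) (huo : u o = 0) (hw : wt u ≤ 2) : InR σ X o u := by
  rcases (show wt u ≤ 1 ∨ wt u = 2 by omega) with h | h
  · exact inR_of_wt_one hM hu huo h
  obtain ⟨a, b, hab, hS⟩ := card_eq_two.mp h
  have hmem : ∀ l, u l ≠ 0 ↔ l = a ∨ l = b := fun l => by simpa using Finset.ext_iff.mp hS l
  have hq3 : 3 ≤ q := by
    by_contra hq
    have hq2 : q = 2 := by have := hσ.two_le; omega
    have hnorm : ∀ x : F, x ≠ 0 → x * σ x = 1 := fun x hx => by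
      have hcard : ((fxd σ).erase 0).card = 1 := by
        rw [card_erase_of_mem (by simp [fxd]), card_fxd hσ, hq2]
      refine card_le_one.mp hcard.le _ ?_ 1 (by simp [fxd])
      simp [fxd, hσ.invol, mul_comm, hx]
    rw [hb, ← Finset.sum_subset (subset_univ {a, b}) fun l _ hl => by
      have h0 : u l = 0 := by_contra fun hne => by
        rcases (hmem l).mp hne with e | e <;> simp [e] at hl
      rw [h0, zero_mul], sum_pair hab, hnorm _ ((hmem a).mpr (Or.inl rfl)),
      hnorm _ ((hmem b).mpr (Or.inr rfl))] at hu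
    exact one_ne_zero (α := F) (by linear_combination hu)
  obtain ⟨v, hv, hv2⟩ := (exists_inR_small hσ hM h₀ hw₀).1 hq3
  obtain ⟨i, j, hij, hvS⟩ := card_eq_two.mp hv2
  have hvmem : ∀ l, v l ≠ 0 ↔ l = i ∨ l = j := fun l => by simpa using Finset.ext_iff.mp hvS l
  have hao : a ≠ o := fun e => (hmem a).mpr (Or.inl rfl) (e ▸ huo)
  have hbo : b ≠ o := fun e => (hmem b).mpr (Or.inr rfl) (e ▸ huo)
  obtain ⟨v', hv', hsv', -⟩ := inR_perm hM (f := ![i, j]) (g := ![a, b])
    (by intro s t; fin_cases s <;> fin_cases t <;> simp [hij, hij.symm])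
    (by intro s t; fin_cases s <;> fin_cases t <;> simp [hab, hab.symm]) hv
    (fun l => by rw [hvmem]; simp [Fin.exists_fin_two, eq_comm])
    (by intro s; fin_cases s <;> simp [hao, hbo])
  refine inR_plane hσ hM hv' hab ?_ hu ((hmem a).mpr (Or.inl rfl)) ((hmem b).mpr (Or.inr rfl))
    fun l h1 h2 => by_contra fun hne => ((hmem l).mp hne).elim h1 h2
  ext l
  simp [hsv', Fin.exists_fin_two, eq_comm]

omit hσ hM [Fintype F] in
lemma wt_le_two {x : ι → F} {a b : ι} (h : ∀ l, l ≠ a → l ≠ b → x l = 0) : wt x ≤ 2 :=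
  (card_le_card (t := {a, b}) fun l hl => by
    simp only [mem_filter, mem_univ, true_and] at hl
    simp only [mem_insert, mem_singleton]
    by_contra hc
    push Not at hc
    exact hl (h l hc.1 hc.2)).trans card_le_two

/-- A quasi-reflection along a vector with two coordinates moves `x` to `y`. -/
lemma exists_reflect_small {u₀ : ι → F} (h₀ : InR σ X o u₀) (hw₀ : 2 ≤ wt u₀) {x y : ι → F}
    {a b : ι} (hsupp : ∀ l, l ≠ a → l ≠ b → y l = x l) (hxo : x o = 0) (hyo : y o = 0)
    (hn' : hb σ x x = hb σ y y) (hh : hb σ (y - x) (y - x) ≠ 0) :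
    ∃ g ∈ quot σ X o, ap g x = y := by
  set h := y - x with hdef
  set s := hb σ h h with hs
  set B := hb σ x h with hB
  have hsB : s = -(B + σ B) := by
    simp only [hs, hB, hdef, hb_sub_left, hb_sub_right, map_sub, hb_herm hσ]
    linear_combination hn'.symm
  have hB0 : B ≠ 0 := fun e => hh (by rw [hsB, e, map_zero, add_zero, neg_zero])
  obtain ⟨ν, hν⟩ := exists_norm hσ (show σ s = s from hb_herm hσ h h)
  have hν0 : ν ≠ 0 := fun e => hh (by rw [← hν, e, zero_mul])
  have hσν : σ ν ≠ 0 := (map_ne_zero σ).mpr hν0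
  set r := ν⁻¹ • h with hr
  have hr1 : hb σ r r = 1 := by
    rw [hr, hb_smul_left, hb_smul_right, ← hs, map_inv₀, ← mul_assoc, ← mul_inv, hν,
      inv_mul_cancel₀ hh]
  have hrR : InR σ X o r := inR_small hσ hM h₀ hw₀ hr1 (by simp [hr, hdef, hxo, hyo])
    (wt_le_two (a := a) (b := b) fun l h1 h2 => by simp [hr, hdef, hsupp l h1 h2])
  set μ := -σ B / B with hμ
  have hμc : μ ∈ cir σ := by
    rw [mem_cir, hμ, map_div₀, map_neg, hσ.invol]
    field_simp [(map_ne_zero σ).mpr hB0]
  refine ⟨_, hrR.2.2 μ hμc, ?_⟩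
  rw [ap_rf hr1 hμc, hr, hb_smul_right, ← hB, smul_smul, map_inv₀]
  have e : (μ - 1) * ((σ ν)⁻¹ * B) * ν⁻¹ = 1 := by
    rw [hμ]
    field_simp
    linear_combination -hν - hsB
  rw [e, one_smul, hdef, add_sub_cancel]

/-- The weight of a vector of weight three or more can be reduced. -/
lemma exists_reduce {u₀ : ι → F} (h₀ : InR σ X o u₀) (hw₀ : 2 ≤ wt u₀) {w : ι → F}
    (hwo : w o = 0) (hw3 : 3 ≤ wt w) :
    ∃ g ∈ quot σ X o, wt (ap g w) < wt w := by
  obtain ⟨a, b, c, ha, hb', hc, hab, hac, hbc⟩ := two_lt_card_iff.mp hw3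
  simp only [mem_filter, mem_univ, true_and] at ha hb' hc
  by_cases hq : q = 2
  · obtain ⟨v, hv, hv3⟩ := (exists_inR_small hσ hM h₀ hw₀).2 hq
    obtain ⟨i, j, k, hij, hik, hjk, hvS⟩ := card_eq_three.mp hv3
    have hvmem : ∀ l, v l ≠ 0 ↔ l = i ∨ l = j ∨ l = k := fun l => by
      simpa using Finset.ext_iff.mp hvS l
    have hne : ∀ l, w l ≠ 0 → l ≠ o := fun l hl e => hl (e ▸ hwo)
    obtain ⟨v', hv', hsv', -⟩ := inR_perm hM (f := ![i, j, k]) (g := ![a, b, c])
      (by intro s t; fin_cases s <;> fin_cases t <;>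
            simp [hij, hij.symm, hik, hik.symm, hjk, hjk.symm])
      (by intro s t; fin_cases s <;> fin_cases t <;>
            simp [hab, hab.symm, hac, hac.symm, hbc, hbc.symm]) hv
      (fun l => by rw [hvmem]; simp [Fin.exists_fin_succ, eq_comm])
      (by intro s; fin_cases s <;> simp [hne a ha, hne b hb', hne c hc])
    have hmem : ∀ l, v' l ≠ 0 ↔ l = a ∨ l = b ∨ l = c := fun l => by
      rw [hsv']; simp [Fin.exists_fin_succ, eq_comm]
    have hnorm : ∀ x : F, x ≠ 0 → x * σ x = 1 := fun x hx => by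
      have hcard : ((fxd σ).erase 0).card = 1 := by
        rw [card_erase_of_mem (by simp [fxd]), card_fxd hσ, hq]
      refine card_le_one.mp hcard.le _ ?_ 1 (by simp [fxd])
      simp [fxd, hσ.invol, mul_comm, hx]
    have hcir : ∀ x : F, x ≠ 0 → x ∈ cir σ := fun x hx => mem_cir.mpr (hnorm x hx)
    obtain ⟨μ, hμ, hμ1⟩ := exists_ne_one hσ
    have hm0 : μ - 1 ≠ 0 := sub_ne_zero.mpr hμ1
    set γ := -(μ - 1)⁻¹ with hγ
    have hγ0 : γ ≠ 0 := neg_ne_zero.mpr (inv_ne_zero hm0)
    set t : ι → F := fun l => if l = a then γ * w a else if l = b then γ * w b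
      else if l = c then w c else 0 with ht
    set d : ι → F := fun l => if l = a ∨ l = b ∨ l = c then t l / v' l else 1 with hd
    have hd0 : ∀ l, d l ∈ cir σ := fun l => hcir _ (by
      simp only [hd]
      split_ifs with h
      · refine div_ne_zero ?_ ((hmem l).mpr h)
        rcases h with rfl | rfl | rfl <;>
          simp [ht, hab.symm, hac.symm, hbc.symm, ha, hb', hc, hγ0]
      · exact one_ne_zero)
    have htR : InR σ X o t := by
      have := inR_diag hM hv' hd0 (by
        rw [hd]; exact if_neg fun h => ((hmem o).mpr h) hv'.2.1)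
      convert this using 1
      funext l
      simp only [hd]
      split_ifs with h
      · rw [div_mul_cancel₀ _ ((hmem l).mpr h)]
      · push Not at h
        simp [ht, h.1, h.2.1, h.2.2]
        exact by_contra fun h0 => ((hmem l).mp (Ne.symm h0)).elim h.1 fun h' => h'.elim h.2.1 h.2.2
    have h2 : (2 : F) = 0 := by
      have h4 : ((4 : ℕ) : F) = 0 := by
        rw [show 4 = Fintype.card F by rw [hσ.card, hq]; rfl]
        exact FiniteField.cast_card_eq_zero F
      exact mul_self_eq_zero.mp (show (2 : F) * 2 = 0 by push_cast at h4; linear_combination h4)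
    have hB : hb σ w t = 1 := by
      rw [hb, ← Finset.sum_subset (subset_univ {a, b, c}) fun l _ hl => by
        simp at hl; simp [ht, hl.1, hl.2.1, hl.2.2],
        sum_insert (by simp [hab, hac]), sum_insert (by simp [hbc]), sum_singleton]
      simp only [ht, hab.symm, hac.symm, hbc.symm, if_true, if_false, map_mul]
      linear_combination (σ γ) * hnorm _ ha + (σ γ) * hnorm _ hb' + hnorm _ hc + σ γ * h2
    refine ⟨_, htR.2.2 μ hμ, ?_⟩
    refine card_lt_card ((ssubset_iff_of_subset fun l hl => ?_).mpr ⟨a, by simp [ha], ?_⟩)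
    · simp only [mem_filter, mem_univ, true_and] at hl ⊢
      intro h0
      refine hl ?_
      rw [ap_rf htR.1 hμ, Pi.add_apply, Pi.smul_apply, smul_eq_mul, h0, zero_add,
        show t l = 0 by
          simp only [ht]
          split_ifs with h1 h2 h3
          · exact absurd h0 (h1 ▸ ha)
          · exact absurd h0 (h2 ▸ hb')
          · exact absurd h0 (h3 ▸ hc)
          · rfl,
        mul_zero]
    · simp only [mem_filter, mem_univ, true_and, not_not]
      rw [ap_rf htR.1 hμ, Pi.add_apply, Pi.smul_apply, smul_eq_mul, hB]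
      simp only [ht, if_true, hγ]
      field_simp
      ring
  · have hq3 : 3 ≤ q := by have := hσ.two_le; omega
    -- a pair with non-zero norm sum reduces at once
    have key : ∀ (z : ι → F) (i j : ι), z o = 0 → i ≠ j → z i ≠ 0 → z j ≠ 0 →
        z i * σ (z i) + z j * σ (z j) ≠ 0 → ∃ g ∈ quot σ X o, wt (ap g z) < wt z := by
      intro z i j hzo hij hi hj hP
      set P := z i * σ (z i) + z j * σ (z j) with hPdef
      obtain ⟨η₀, hη₀⟩ := exists_norm hσ (show σ P = P by
        simp [hPdef, hσ.invol, mul_comm])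
      have hη0 : η₀ ≠ 0 := fun e => hP (by rw [← hη₀, e, zero_mul])
      obtain ⟨d, hd, hne⟩ := exists_nv_ne hσ (one_ne_zero : (1 : F) ≠ 0)
        (mul_ne_zero hi ((map_ne_zero σ).mpr hη0)) (1 + z i * σ (z i) * P + 2 * P)
      set η := η₀ * σ d with hη
      have hηn : η * σ η = P := by
        rw [hη, map_mul, hσ.invol]
        linear_combination (d * σ d) * hη₀ + P * mem_cir.mp hd
      have htr : z i * σ η + σ (z i * σ η) ≠ 2 * P := fun e => hne (by
        rw [nv_eq _ _ _ (mem_cir.mp hd)]
        simp only [map_one, hη, map_mul, hσ.invol] at e ⊢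
        linear_combination e + (z i * σ (z i)) * hη₀)
      set y : ι → F := Function.update (Function.update z i η) j 0 with hy
      have hyi : y i = η := by simp [hy, hij]
      have hyj : y j = 0 := by simp [hy]
      have hyl : ∀ l, l ≠ i → l ≠ j → y l = z l := fun l h1 h2 => by simp [hy, h1, h2]
      have hio : i ≠ o := fun e => hi (e ▸ hzo)
      have hjo : j ≠ o := fun e => hj (e ▸ hzo)
      have hyo : y o = 0 := by rw [hyl o hio.symm hjo.symm, hzo]
      have split : ∀ f : ι → F, ∑ l, f l = f i + f j + ∑ l ∈ ({i, j} : Finset ι)ᶜ, f l := fun f => by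
        rw [← sum_add_sum_compl {i, j}, sum_pair hij]
      have hrest : ∀ l ∈ ({i, j} : Finset ι)ᶜ, y l = z l := fun l hl => by
        simp at hl; exact hyl l hl.1 hl.2
      obtain ⟨g, hg, hgz⟩ := exists_reflect_small hσ hM h₀ hw₀ hyl hzo hyo (by
          rw [hb, hb, split, split, hyi, hyj,
            Finset.sum_congr rfl fun l hl => show y l * σ (y l) = z l * σ (z l) by rw [hrest l hl]]
          linear_combination hPdef.symm - hηn) (by
          rw [hb, split, Finset.sum_eq_zero (s := ({i, j} : Finset ι)ᶜ) fun l hl => by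
            simp [hrest l hl]]
          intro h
          apply htr
          simp only [Pi.sub_apply, hyi, hyj, map_sub, map_zero, map_mul, hσ.invol] at h ⊢
          linear_combination -h + hηn + hPdef.symm)
      refine ⟨g, hg, ?_⟩
      rw [hgz]
      refine card_lt_card ((ssubset_iff_of_subset fun l hl => ?_).mpr ⟨j, by simp [hj], by simp [hyj]⟩)
      simp only [mem_filter, mem_univ, true_and] at hl ⊢
      by_cases h1 : l = i
      · exact h1 ▸ hi
      by_cases h2 : l = j
      · exact h2 ▸ hj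
      rwa [← hyl l h1 h2]
    by_cases h1 : w a * σ (w a) + w b * σ (w b) = 0
    swap
    · exact key w a b hwo hab ha hb' h1
    by_cases h2 : w a * σ (w a) + w c * σ (w c) = 0
    swap
    · exact key w a c hwo hac ha hc h2
    by_cases h3 : w b * σ (w b) + w c * σ (w c) = 0
    swap
    · exact key w b c hwo hbc hb' hc h3
    -- characteristic two with equal norms: first unbalance the first pair
    set p := w a * σ (w a) with hp
    have hp0 : p ≠ 0 := mul_ne_zero ha ((map_ne_zero σ).mpr ha)
    have htwo : (2 : F) = 0 := (mul_eq_zero.mp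
      (show (2 : F) * p = 0 by linear_combination h1 + h2 - h3)).resolve_right hp0
    obtain ⟨ε, hε, hε1⟩ := exists_ne_one hσ
    obtain ⟨ν, hνm, hν⟩ := exists_mem_notMem_of_card_lt_card (s := ({0, 1} : Finset F)) (t := fxd σ)
      (lt_of_le_of_lt card_le_two (by rw [card_fxd hσ]; omega))
    simp only [fxd, mem_filter, mem_univ, true_and] at hνm
    simp only [mem_insert, mem_singleton, not_or] at hν
    obtain ⟨k₀, hk₀⟩ := exists_norm hσ hνm
    have hk00 : k₀ ≠ 0 := fun e => hν.1 (by rw [← hk₀, e, zero_mul])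
    set β := p * (1 + σ ε) with hβ
    have hσp : σ p = p := by simp [hp, hσ.invol, mul_comm]
    have hβ0 : β ≠ 0 := by
      refine mul_ne_zero hp0 fun e => hε1 ?_
      have : σ ε = 1 := by linear_combination e - htwo
      rw [← hσ.invol ε, this, map_one]
    obtain ⟨d, hd, hne⟩ := exists_nv_ne hσ (one_ne_zero : (1 : F) ≠ 0)
      (mul_ne_zero ((map_ne_zero σ).mpr hk00) hβ0) (1 + ν * (β * σ β))
    set k := k₀ * σ d with hk
    have hkn : k * σ k = ν := by
      rw [hk, map_mul, hσ.invol]
      linear_combination (d * σ d) * hk₀ + ν * mem_cir.mp hd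
    have htr : σ k * β + σ (σ k * β) ≠ 0 := fun e => hne (by
      rw [nv_eq _ _ _ (mem_cir.mp hd)]
      simp only [map_one, hk, map_mul, hσ.invol] at e ⊢
      linear_combination e + (β * σ β) * hk₀)
    set y : ι → F := Function.update (Function.update w a (k * w a)) b (k * ε * w b) with hy
    have hya : y a = k * w a := by simp [hy, hab]
    have hyb : y b = k * ε * w b := by simp [hy]
    have hyl : ∀ l, l ≠ a → l ≠ b → y l = w l := fun l h1 h2 => by simp [hy, h1, h2]
    have hao : a ≠ o := fun e => ha (e ▸ hwo)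
    have hbo : b ≠ o := fun e => hb' (e ▸ hwo)
    have hyo : y o = 0 := by rw [hyl o hao.symm hbo.symm, hwo]
    have split : ∀ f : ι → F, ∑ l, f l = f a + f b + ∑ l ∈ ({a, b} : Finset ι)ᶜ, f l := fun f => by
      rw [← sum_add_sum_compl {a, b}, sum_pair hab]
    have hrest : ∀ l ∈ ({a, b} : Finset ι)ᶜ, y l = w l := fun l hl => by
      simp at hl; exact hyl l hl.1 hl.2
    obtain ⟨g, hg, hgw⟩ := exists_reflect_small hσ hM h₀ hw₀ hyl hwo hyo (by
        rw [hb, hb, split, split, hya, hyb,
          Finset.sum_congr rfl fun l hl => show y l * σ (y l) = w l * σ (w l) by rw [hrest l hl]]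
        simp only [map_mul]
        linear_combination (1 - k * σ k) * h1 -
          (k * σ k * (w b * σ (w b))) * mem_cir.mp hε) (by
        rw [hb, split, Finset.sum_eq_zero (s := ({a, b} : Finset ι)ᶜ) fun l hl => by
          simp [hrest l hl]]
        intro h
        apply htr
        have hwb : w b * σ (w b) = p := by linear_combination h1 - p * htwo
        simp only [Pi.sub_apply, hya, hyb, map_sub, map_mul] at h
        simp only [hβ, map_mul, map_add, map_one, hσ.invol, hσp]
        linear_combination -h + (k * σ k * ε * σ ε + 1 - k * ε - σ k * σ ε) * hwb +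
          (k * σ k * p) * mem_cir.mp hε + (k * σ k * p + p) * htwo +
          (k * σ k + 1 - k - σ k) * hp.symm)
    have hwy : ∀ l, w l ≠ 0 ↔ y l ≠ 0 := fun l => by
      have hk0 : k ≠ 0 := fun e => hν.1 (by rw [← hkn, e, zero_mul])
      by_cases h1 : l = a
      · subst h1; simp [hya, ha, hk0]
      by_cases h2 : l = b
      · subst h2; simp [hyb, hb', hk0, ne_zero_of_mem_cir hε]
      · rw [hyl l h1 h2]
    obtain ⟨g', hg', hlt⟩ := key y a c hyo hac ((hwy a).mp ha) ((hwy c).mp hc) (by
      rw [hya, hyl c hac.symm hbc.symm, map_mul]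
      intro h
      exact hν.2 (mul_right_cancel₀ hp0 (by linear_combination h - h2 - p * hkn)))
    refine ⟨g' * g, mul_mem hg' hg, ?_⟩
    rw [ap_mul, hgw]
    refine hlt.trans_eq ?_
    simp only [wt]
    congr 1
    ext l
    simp [hwy l]

/-- Every unit vector of the hyperplane. -/
theorem inR_all {u₀ : ι → F} (h₀ : InR σ X o u₀) (hw₀ : 2 ≤ wt u₀) {u : ι → F}
    (hu : hb σ u u = 1) (huo : u o = 0) : InR σ X o u := by
  suffices H : ∀ (m : ℕ) (u : ι → F), wt u ≤ m → hb σ u u = 1 → u o = 0 → InR σ X o u from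
    H _ u le_rfl hu huo
  intro m
  induction m with
  | zero => exact fun u hw hu huo => inR_small hσ hM h₀ hw₀ hu huo (by omega)
  | succ m ih =>
    intro u hw hu huo
    by_cases h2 : wt u ≤ 2
    · exact inR_small hσ hM h₀ hw₀ hu huo h2
    obtain ⟨g, hg, hlt⟩ := exists_reduce hσ hM h₀ hw₀ huo (by omega)
    have := (ih (ap g u) (by omega) ((hb_ap hg.1 u u).trans hu)
      (by rw [quot_apply_o hg, huo])).ap (inv_mem hg)
    rwa [ap_inv_ap] at this

end CfsgLib.UMon
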