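import Cfsg.Agent.Lib.Geometric.UnitaryMonomial.Circle
import Cfsg.Agent.Lib.Geometric.Monomial
import Cfsg.Agent.Lib.Geometric.UnitaryGen

/-!
The standard hermitian form, its monomial isometries and its quasi-reflections.
-/

set_option autoImplicit false

namespace CfsgLib.UMon

open CfsgLib.Geometric Finset Matrix

variable {ι : Type} [Fintype ι] [DecidableEq ι] {F : Type*} [Field F] [Fintype F] [DecidableEq F]
variable {σ : F ≃+* F} {q : ℕ}

local notation "e[" j "]" => (Pi.single j (1 : _) : ι → _)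

/-- The standard hermitian form. -/
def hb (σ : F ≃+* F) (u v : ι → F) : F := ∑ i, u i * σ (v i)

section Form

omit [DecidableEq ι] [Fintype F] [DecidableEq F]

lemma hb_add_left (x y v : ι → F) : hb σ (x + y) v = hb σ x v + hb σ y v := by
  simp [hb, add_mul, Finset.sum_add_distrib]

lemma hb_smul_left (c : F) (x v : ι → F) : hb σ (c • x) v = c * hb σ x v := by
  simp [hb, Finset.mul_sum, mul_assoc]

lemma hb_add_right (v x y : ι → F) : hb σ v (x + y) = hb σ v x + hb σ v y := by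
  simp [hb, mul_add, Finset.sum_add_distrib]

lemma hb_smul_right (c : F) (v x : ι → F) : hb σ v (c • x) = σ c * hb σ v x := by
  simp only [hb, Finset.mul_sum, Pi.smul_apply, smul_eq_mul, map_mul]
  exact Finset.sum_congr rfl fun i _ => by ring

lemma hb_sub_left (x y v : ι → F) : hb σ (x - y) v = hb σ x v - hb σ y v := by
  simp [hb, sub_mul, Finset.sum_sub_distrib]

lemma hb_sub_right (v x y : ι → F) : hb σ v (x - y) = hb σ v x - hb σ v y := by
  simp [hb, mul_sub, Finset.sum_sub_distrib]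

lemma hb_zero_left (v : ι → F) : hb σ 0 v = 0 := by simp [hb]

lemma hb_zero_right (v : ι → F) : hb σ v 0 = 0 := by simp [hb]

end Form

omit [Fintype F] [DecidableEq F] in
lemma hb_single_right (x : ι → F) (m : ι) (a : F) : hb σ x (Pi.single m a) = x m * σ a := by
  simp [hb, Pi.single_apply, apply_ite σ, Finset.sum_ite_eq']

omit [Fintype F] [DecidableEq F] in
lemma hb_single_left (x : ι → F) (m : ι) (a : F) : hb σ (Pi.single m a) x = a * σ (x m) := by
  simp [hb, Pi.single_apply, Finset.sum_ite_eq']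

omit [DecidableEq ι] [DecidableEq F] in
lemma hb_herm (hσ : IsConj σ q) (u v : ι → F) : σ (hb σ u v) = hb σ v u := by
  simp [hb, hσ.invol, mul_comm]

/-- The unitary group of the standard form. -/
abbrev GUs (σ : F ≃+* F) : Subgroup (GL ι F) := isom (hb σ)

omit [Fintype F] [DecidableEq F] in
lemma hb_ap {g : GL ι F} (hg : g ∈ GUs σ) (x y : ι → F) : hb σ (ap g x) (ap g y) = hb σ x y :=
  hg x y

omit [Fintype F] [DecidableEq F] in
lemma hb_ap_left {g : GL ι F} (hg : g ∈ GUs σ) (x y : ι → F) :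
    hb σ (ap g x) y = hb σ x (ap g⁻¹ y) := by
  rw [← hb_ap hg x, ap_ap_inv]

omit [Fintype F] [DecidableEq F] in
/-- The inverse is the conjugate transpose. -/
lemma ap_inv_entry {g : GL ι F} (hg : g ∈ GUs σ) (a b : ι) :
    ap g⁻¹ e[b] a = σ (ap g e[a] b) := by
  have h := hb_ap_left (inv_mem hg) (e[b] : ι → F) (e[a] : ι → F)
  rw [inv_inv, hb_single_right, hb_single_left, map_one, mul_one, one_mul] at h
  exact h

/-- A function with no zero value as a family of units. -/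
def uu (d : ι → F) : ι → Fˣ := fun i => if h : d i = 0 then 1 else Units.mk0 (d i) h

omit [Fintype ι] [DecidableEq ι] [Fintype F] in
lemma coe_uu {d : ι → F} (hd : ∀ i, d i ≠ 0) (i : ι) : (uu d i : F) = d i := by
  simp [uu, hd i]

/-- The monomial map of `π` with entries `d`. -/
def mo (π : Equiv.Perm ι) (d : ι → F) : GL ι F := mon π (uu d)

/-- The diagonal map with entries `d`. -/
abbrev dia (d : ι → F) : GL ι F := mo 1 d

omit [Fintype F] in
lemma ap_mo {π : Equiv.Perm ι} {d : ι → F} (hd : ∀ i, d i ≠ 0) (x : ι → F) (m : ι) :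
    ap (mo π d) x m = d m * x (π.symm m) := by
  rw [mo, ap_mon, coe_uu hd]

omit [Fintype F] in
lemma ap_dia {d : ι → F} (hd : ∀ i, d i ≠ 0) (x : ι → F) (m : ι) :
    ap (dia d) x m = d m * x m := by
  rw [ap_mo hd]; rfl

omit [Fintype F] in
lemma det_mo {π : Equiv.Perm ι} {d : ι → F} (hd : ∀ i, d i ≠ 0) :
    (mo π d : Matrix ι ι F).det = ((Equiv.Perm.sign π : ℤ) : F) * ∏ i, d i := by
  rw [mo, det_mon]
  congr 1
  exact Finset.prod_congr rfl fun i _ => coe_uu hd i

lemma mon_mem_GUs {π : Equiv.Perm ι} {c : ι → Fˣ} (hc : ∀ m, (c m : F) ∈ cir σ) :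
    mon π c ∈ GUs σ := by
  intro u v
  change hb σ (ap (mon π c) u) (ap (mon π c) v) = hb σ u v
  rw [hb, hb, ← Equiv.sum_comp π]
  refine Finset.sum_congr rfl fun i _ => ?_
  rw [ap_mon, ap_mon, Equiv.symm_apply_apply, map_mul]
  linear_combination (u i * σ (v i)) * mem_cir.mp (hc (π i))

lemma mo_mem_GUs {π : Equiv.Perm ι} {d : ι → F} (hd : ∀ i, d i ∈ cir σ) : mo π d ∈ GUs σ :=
  mon_mem_GUs fun m => by rw [coe_uu fun i => ne_zero_of_mem_cir (hd i)]; exact hd m

/-- The monomial isometries of determinant one lie in `X`. -/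
def MonIn (σ : F ≃+* F) (X : Subgroup (GL ι F)) : Prop :=
  ∀ π (c : ι → Fˣ), (∀ m, (c m : F) ∈ cir σ) → (mon π c : Matrix ι ι F).det = 1 → mon π c ∈ X

lemma mo_mem {X : Subgroup (GL ι F)} (hM : MonIn σ X) {π : Equiv.Perm ι} {d : ι → F}
    (hd : ∀ i, d i ∈ cir σ) (hp : ((Equiv.Perm.sign π : ℤ) : F) * ∏ i, d i = 1) : mo π d ∈ X :=
  hM _ _ (fun m => by rw [coe_uu fun i => ne_zero_of_mem_cir (hd i)]; exact hd m)
    (show (mo π d : Matrix ι ι F).det = 1 by rw [det_mo fun i => ne_zero_of_mem_cir (hd i), hp])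

lemma dia_mem {X : Subgroup (GL ι F)} (hM : MonIn σ X) {d : ι → F}
    (hd : ∀ i, d i ∈ cir σ) (hp : ∏ i, d i = 1) : dia d ∈ X :=
  mo_mem hM hd (by simp [hp])

omit [Fintype F] in
lemma isMon_mo (π : Equiv.Perm ι) (d : ι → F) : IsMon (mo π d) := ⟨π, _, rfl⟩

/-- The number of non-zero coordinates. -/
def wt (x : ι → F) : ℕ := (univ.filter fun i => x i ≠ 0).card

omit [Fintype F] in
lemma wt_col_mon {g : GL ι F} (hg : IsMon g) (j : ι) : wt (ap g e[j]) ≤ 1 := by
  obtain ⟨π, c, rfl⟩ := hg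
  refine card_le_one.mpr fun x hx y hy => ?_
  simp only [mem_filter, mem_univ, true_and, ap_mon_single] at hx hy
  have hx' : x = π j := by_contra fun h => hx (by simp [h])
  have hy' : y = π j := by_contra fun h => hy (by simp [h])
  rw [hx', hy']

omit [Fintype F] in
lemma not_isMon_of_two {g : GL ι F} {j a b : ι} (hab : a ≠ b) (ha : ap g e[j] a ≠ 0)
    (hb : ap g e[j] b ≠ 0) : ¬ IsMon g := fun h => by
  have := wt_col_mon h j
  exact hab (card_le_one.mp this a (by simp [ha]) b (by simp [hb]))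

omit [Fintype F] [DecidableEq F] in
lemma not_isMon_mul_left {w z : GL ι F} (hw : IsMon w) (hz : ¬ IsMon z) : ¬ IsMon (w * z) :=
  fun h => hz (by simpa using hw.inv.mul h)

omit [Fintype F] [DecidableEq F] in
lemma not_isMon_inv {z : GL ι F} (hz : ¬ IsMon z) : ¬ IsMon z⁻¹ :=
  fun h => hz (by simpa using h.inv)

/-- The quasi-reflection in the unit vector `u` with eigenvalue `μ`. -/
noncomputable def rf (σ : F ≃+* F) (u : ι → F) (μ : F) : GL ι F :=
  if h : 1 + ((μ - 1) • ∑ i, σ (u i) • (LinearMap.proj i : (ι → F) →ₗ[F] F)) u ≠ 0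
  then dil u _ h else 1

omit [DecidableEq ι] [Fintype F] [DecidableEq F] in
lemma rf_fun (u : ι → F) (μ : F) (x : ι → F) :
    ((μ - 1) • ∑ i, σ (u i) • (LinearMap.proj i : (ι → F) →ₗ[F] F)) x = (μ - 1) * hb σ x u := by
  simp [LinearMap.sum_apply, hb, mul_comm]

lemma ap_rf {u : ι → F} (hu : hb σ u u = 1) {μ : F} (hμ : μ ∈ cir σ) (x : ι → F) :
    ap (rf σ u μ) x = x + ((μ - 1) * hb σ x u) • u := by
  have h : 1 + ((μ - 1) • ∑ i, σ (u i) • (LinearMap.proj i : (ι → F) →ₗ[F] F)) u ≠ 0 := by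
    rw [rf_fun, hu, mul_one, add_sub_cancel]; exact ne_zero_of_mem_cir hμ
  rw [rf, dif_pos h, ap_dil, rf_fun]

lemma rf_mem_GUs (hσ : IsConj σ q) {u : ι → F} (hu : hb σ u u = 1) {μ : F} (hμ : μ ∈ cir σ) :
    rf σ u μ ∈ GUs σ := by
  intro x y
  change hb σ (ap _ x) (ap _ y) = hb σ x y
  simp only [ap_rf hu hμ, hb_add_left, hb_add_right, hb_smul_left, hb_smul_right, map_mul, map_sub,
    map_one, hu, hb_herm hσ]
  linear_combination (hb σ x u * hb σ u y) * mem_cir.mp hμ

lemma det_rf {u : ι → F} (hu : hb σ u u = 1) {μ : F} (hμ : μ ∈ cir σ) :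
    (rf σ u μ : Matrix ι ι F).det = μ := by
  rw [det_of_ap _ u ((μ - 1) • ∑ i, σ (u i) • (LinearMap.proj i : (ι → F) →ₗ[F] F))
    fun x => by rw [ap_rf hu hμ, rf_fun], rf_fun, hu]
  ring

lemma rf_mul {u : ι → F} (hu : hb σ u u = 1) {μ ν : F} (hμ : μ ∈ cir σ) (hν : ν ∈ cir σ) :
    rf σ u μ * rf σ u ν = rf σ u (μ * ν) := by
  refine gl_ext fun x => ?_
  simp only [ap_mul, ap_rf hu hμ, ap_rf hu hν, ap_rf hu (mul_mem_cir hμ hν), hb_add_left,
    hb_smul_left, hu]
  module

lemma conj_rf {g : GL ι F} (hg : g ∈ GUs σ) {u : ι → F} (hu : hb σ u u = 1) {μ : F}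
    (hμ : μ ∈ cir σ) : g * rf σ u μ * g⁻¹ = rf σ (ap g u) μ := by
  refine gl_ext fun x => ?_
  simp only [ap_mul, ap_rf hu hμ, ap_rf ((hb_ap hg u u).trans hu) hμ, ap_add, ap_smul, ap_ap_inv,
    hb_ap_left (inv_mem hg), inv_inv]

lemma rf_smul {u : ι → F} (hu : hb σ u u = 1) {c μ : F} (hc : c ∈ cir σ) (hμ : μ ∈ cir σ) :
    rf σ (c • u) μ = rf σ u μ := by
  have hcu : hb σ (c • u) (c • u) = 1 := by
    rw [hb_smul_left, hb_smul_right, hu, mul_one]; exact mem_cir.mp hc
  refine gl_ext fun x => ?_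
  rw [ap_rf hcu hμ, ap_rf hu hμ, hb_smul_right, smul_smul]
  congr 2
  linear_combination ((μ - 1) * hb σ x u) * mem_cir.mp hc

omit [Fintype F] [DecidableEq F] in
lemma hb_single_self (a : ι) : hb σ (e[a] : ι → F) e[a] = 1 := by
  rw [hb_single_left]; simp

lemma rf_single {a : ι} {μ : F} (hμ : μ ∈ cir σ) :
    rf σ (e[a] : ι → F) μ = dia (Function.update 1 a μ) := by
  have hd : ∀ i, (Function.update (1 : ι → F) a μ) i ≠ 0 := fun i => by
    by_cases h : i = a
    · subst h; simpa using ne_zero_of_mem_cir hμ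
    · simp [h]
  refine gl_ext fun x => funext fun m => ?_
  rw [ap_rf (hb_single_self a) hμ, ap_dia hd, hb_single_right]
  by_cases h : m = a
  · subst h; simp; ring
  · simp [h]

end CfsgLib.UMon
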