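import Mathlib

/-!
The norm-one elements of `𝔽_{q²}`: sums of rotated norm-one elements cover everything.
-/

set_option autoImplicit false

namespace CfsgLib.UMon

open Finset

variable {F : Type*} [Field F] [Fintype F]

/-- `σ` is the involution `x ↦ x ^ q` of a field with `q ^ 2` elements. -/
structure IsConj (σ : F ≃+* F) (q : ℕ) : Prop where
  card : Fintype.card F = q ^ 2
  pow : ∀ x, σ x = x ^ q

variable {σ : F ≃+* F} {q : ℕ}

namespace IsConj

lemma two_le (h : IsConj σ q) : 2 ≤ q := by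
  have h1 := Fintype.one_lt_card (α := F)
  rw [h.card] at h1
  exact (Nat.one_lt_pow_iff two_ne_zero).mp h1

lemma invol (h : IsConj σ q) (x : F) : σ (σ x) = x := by
  rw [h.pow, h.pow, ← pow_mul, ← sq, ← h.card, FiniteField.pow_card]

lemma card_units (h : IsConj σ q) : Nat.card Fˣ = (q - 1) * (q + 1) := by
  rw [Nat.card_units, Nat.card_eq_fintype_card, h.card, mul_comm, ← Nat.sq_sub_sq, one_pow]

/-- The number of roots of unity of order dividing a divisor of `q ^ 2 - 1`. -/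
lemma card_roots [DecidableEq F] (h : IsConj σ q) {d : ℕ} (hd : d ∣ (q - 1) * (q + 1))
    (hd0 : 0 < d) : (univ.filter fun x : F => x ^ d = 1).card = d := by
  classical
  have hne : ∀ x : F, x ^ d = 1 → x ≠ 0 := by
    rintro x hx rfl
    simp [zero_pow hd0.ne'] at hx
  let e : {x : F // x ^ d = 1} ≃ (powMonoidHom d : Fˣ →* Fˣ).ker :=
    { toFun := fun x => ⟨Units.mk0 x.1 (hne _ x.2),
        MonoidHom.mem_ker.mpr (Units.ext (by simpa using x.2))⟩
      invFun := fun u => ⟨(u.1 : F), by simpa using congrArg Units.val (MonoidHom.mem_ker.mp u.2)⟩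
      left_inv := fun x => Subtype.ext rfl
      right_inv := fun u => Subtype.ext (Units.ext rfl) }
  have h1 := Nat.card_congr e
  rw [IsCyclic.card_powMonoidHom_ker, h.card_units, Nat.gcd_eq_right hd,
    Nat.card_eq_fintype_card, Fintype.card_subtype] at h1
  exact h1

end IsConj

variable [DecidableEq F]

/-- The norm-one elements. -/
def cir (σ : F ≃+* F) : Finset F := univ.filter fun x => x * σ x = 1

/-- The fixed elements. -/
def fxd (σ : F ≃+* F) : Finset F := univ.filter fun x => σ x = x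

lemma mem_cir {x : F} : x ∈ cir σ ↔ x * σ x = 1 := by simp [cir]

lemma one_mem_cir : (1 : F) ∈ cir σ := by simp [mem_cir]

lemma ne_zero_of_mem_cir {x : F} (h : x ∈ cir σ) : x ≠ 0 := by
  rintro rfl
  simp [mem_cir] at h

lemma mul_mem_cir {x y : F} (hx : x ∈ cir σ) (hy : y ∈ cir σ) : x * y ∈ cir σ := by
  rw [mem_cir] at *
  rw [map_mul]
  linear_combination (y * σ y) * hx + hy

lemma inv_eq_of_mem_cir {x : F} (h : x ∈ cir σ) : x⁻¹ = σ x :=
  inv_eq_of_mul_eq_one_right (mem_cir.mp h)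

lemma inv_mem_cir {x : F} (h : x ∈ cir σ) : x⁻¹ ∈ cir σ := by
  rw [mem_cir] at *
  rw [map_inv₀, ← mul_inv, h, inv_one]

lemma div_mem_cir {x y : F} (hx : x ∈ cir σ) (hy : y ∈ cir σ) : x / y ∈ cir σ := by
  rw [div_eq_mul_inv]; exact mul_mem_cir hx (inv_mem_cir hy)

lemma neg_mem_cir {x : F} (h : x ∈ cir σ) : -x ∈ cir σ := by
  rw [mem_cir] at *
  rw [map_neg]; linear_combination h

lemma pow_mem_cir {x : F} (h : x ∈ cir σ) (k : ℕ) : x ^ k ∈ cir σ := by
  induction k with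
  | zero => simpa using one_mem_cir
  | succ k ih => rw [pow_succ]; exact mul_mem_cir ih h

lemma zpow_mem_cir {x : F} (h : x ∈ cir σ) (k : ℤ) : x ^ k ∈ cir σ := by
  cases k with
  | ofNat k => simpa using pow_mem_cir h k
  | negSucc k => rw [zpow_negSucc]; exact inv_mem_cir (pow_mem_cir h _)

lemma prod_mem_cir {α : Type*} (s : Finset α) (f : α → F) (h : ∀ i ∈ s, f i ∈ cir σ) :
    ∏ i ∈ s, f i ∈ cir σ :=
  prod_induction _ (· ∈ cir σ) (fun _ _ => mul_mem_cir) one_mem_cir h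

section Conj

variable (hσ : IsConj σ q)
include hσ

lemma card_cir : (cir σ).card = q + 1 := by
  have : cir σ = univ.filter fun x => x ^ (q + 1) = 1 := by
    ext x; simp [mem_cir, hσ.pow, pow_succ']
  rw [this]
  exact hσ.card_roots (Dvd.intro_left _ rfl) (by omega)

lemma card_fxd : (fxd σ).card = q := by
  have h2 := hσ.two_le
  have : fxd σ = insert 0 (univ.filter fun x => x ^ (q - 1) = 1) := by
    ext x
    simp only [fxd, mem_filter, mem_univ, true_and, mem_insert, hσ.pow]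
    by_cases hx : x = 0
    · simp [hx, zero_pow (show q ≠ 0 by omega)]
    · simp only [hx, false_or]
      rw [show x ^ q = x ^ (q - 1) * x by rw [← pow_succ, Nat.sub_add_cancel (by omega)],
        mul_eq_right₀ hx]
  rw [this, card_insert_of_notMem (by simp [zero_pow (show q - 1 ≠ 0 by omega)]),
    hσ.card_roots (Dvd.intro _ rfl) (by omega)]
  omega

lemma pow_card_cir {x : F} (h : x ∈ cir σ) : x ^ (q + 1) = 1 := by
  rw [pow_succ', ← hσ.pow]; exact mem_cir.mp h

lemma exists_sq_ne_one : ∃ c ∈ cir σ, c ^ 2 ≠ 1 := by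
  by_contra hc
  push Not at hc
  have hsub : cir σ ⊆ ({1, -1} : Finset F) := fun c h => by
    rcases sq_eq_one_iff.mp (hc c h) with h' | h' <;> simp [h']
  have := (card_le_card hsub).trans card_le_two
  have := card_cir hσ
  have := hσ.two_le
  omega

lemma exists_ne_one : ∃ c ∈ cir σ, c ≠ 1 := by
  obtain ⟨c, hc, h⟩ := exists_sq_ne_one hσ
  exact ⟨c, hc, fun e => h (by rw [e, one_pow])⟩

/-- The norm of `x + y d`. -/
def nv (σ : F ≃+* F) (x y d : F) : F := (x + y * d) * σ (x + y * d)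

omit [Fintype F] [DecidableEq F] hσ in
lemma nv_eq (x y d : F) (hd : d * σ d = 1) :
    nv σ x y d = x * σ x + y * σ y + (x * σ (y * d) + y * d * σ x) := by
  simp only [nv, map_add, map_mul]
  linear_combination (y * σ y) * hd

lemma nv_mem_fxd (x y d : F) : nv σ x y d ∈ fxd σ := by
  simp [fxd, nv, map_mul, hσ.invol, mul_comm]

omit hσ in
/-- The values of `nv x y` are attained at most twice. -/
lemma card_le_two_mul_image {x y : F} (hx : x ≠ 0) (hy : y ≠ 0) {s : Finset F} (hs : s ⊆ cir σ) :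
    s.card ≤ 2 * (s.image (nv σ x y)).card := by
  refine card_le_mul_card_image s 2 fun b hb => ?_
  obtain ⟨d₀, hd₀, rfl⟩ := mem_image.mp hb
  refine (card_le_card (t := {d₀, x * σ y / (y * σ x * d₀)}) fun d hd => ?_).trans card_le_two
  simp only [mem_filter] at hd
  obtain ⟨hds, he⟩ := hd
  have h0 := mem_cir.mp (hs hd₀)
  have h1 := mem_cir.mp (hs hds)
  have hd0 := ne_zero_of_mem_cir (hs hd₀)
  have hd1 := ne_zero_of_mem_cir (hs hds)
  have hσx : σ x ≠ 0 := (map_ne_zero σ).mpr hx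
  rw [nv_eq _ _ _ h1, nv_eq _ _ _ h0, map_mul, map_mul] at he
  have key : (d - d₀) * (y * σ x * (d * d₀) - x * σ y) = 0 := by
    linear_combination (d * d₀) * he - (x * σ y * d₀) * h1 + (x * σ y * d) * h0
  rcases mul_eq_zero.mp key with h | h
  · simp [sub_eq_zero.mp h]
  · simp only [mem_insert, mem_singleton]
    right
    rw [eq_div_iff (mul_ne_zero (mul_ne_zero hy hσx) hd0)]
    linear_combination h

lemma exists_nv_ne {x y : F} (hx : x ≠ 0) (hy : y ≠ 0) (τ : F) :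
    ∃ d ∈ cir σ, nv σ x y d ≠ τ := by
  by_contra hc
  push Not at hc
  have hsub : (cir σ).image (nv σ x y) ⊆ {τ} := fun b hb => by
    obtain ⟨d, hd, rfl⟩ := mem_image.mp hb
    simp [hc d hd]
  have := (card_le_card hsub).trans_eq (card_singleton τ)
  have := card_le_two_mul_image hx hy (s := cir σ) subset_rfl
  have := card_cir hσ
  have := hσ.two_le
  omega

/-- Two norm images meet, twice when `q` is even. -/
lemma one_le_card_inter {x y x' y' : F} (hx : x ≠ 0) (hy : y ≠ 0) (hx' : x' ≠ 0) (hy' : y' ≠ 0) :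
    1 ≤ ((cir σ).image (nv σ x y) ∩ (cir σ).image (nv σ x' y')).card ∧
      (Even q → 2 ≤ ((cir σ).image (nv σ x y) ∩ (cir σ).image (nv σ x' y')).card) := by
  have h1 := card_le_two_mul_image hx hy (s := cir σ) subset_rfl
  have h2 := card_le_two_mul_image hx' hy' (s := cir σ) subset_rfl
  have h3 := card_union_add_card_inter ((cir σ).image (nv σ x y)) ((cir σ).image (nv σ x' y'))
  have h4 : ((cir σ).image (nv σ x y) ∪ (cir σ).image (nv σ x' y')).card ≤ q := by
    rw [← card_fxd hσ]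
    refine card_le_card (union_subset ?_ ?_) <;>
    · intro b hb
      obtain ⟨d, -, rfl⟩ := mem_image.mp hb
      exact nv_mem_fxd hσ _ _ _
  rw [card_cir hσ] at h1 h2
  refine ⟨by omega, fun he => ?_⟩
  obtain ⟨r, hr⟩ := he
  omega

lemma exists_nv_eq {x y x' y' : F} (hx : x ≠ 0) (hy : y ≠ 0) (hx' : x' ≠ 0) (hy' : y' ≠ 0) :
    ∃ d ∈ cir σ, ∃ d' ∈ cir σ, nv σ x y d = nv σ x' y' d' := by
  obtain ⟨b, hb⟩ := card_pos.mp (one_le_card_inter hσ hx hy hx' hy').1
  rw [mem_inter, mem_image, mem_image] at hb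
  obtain ⟨⟨d, hd, rfl⟩, d', hd', he⟩ := hb
  exact ⟨d, hd, d', hd', he.symm⟩

omit hσ in
/-- Equal norms differ by a norm-one factor. -/
lemma exists_rot {a b : F} (h : a * σ a = b * σ b) : ∃ e ∈ cir σ, e * a = b := by
  by_cases ha : a = 0
  · rw [ha] at h ⊢
    have : b = 0 := by simpa using h.symm
    exact ⟨1, one_mem_cir, by simp [this]⟩
  · refine ⟨b / a, ?_, div_mul_cancel₀ b ha⟩
    have hσa : σ a ≠ 0 := (map_ne_zero σ).mpr ha
    rw [mem_cir, map_div₀, div_mul_div_comm, div_eq_one_iff_eq (mul_ne_zero ha hσa)]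
    exact h.symm

/-- Three circles cover every non-zero element. -/
lemma exists_three {a b c s : F} (ha : a ≠ 0) (hb : b ≠ 0) (hc : c ≠ 0) (hs : s ≠ 0) :
    ∃ x ∈ cir σ, ∃ y ∈ cir σ, ∃ z ∈ cir σ, a * x + b * y + c * z = s := by
  obtain ⟨d, hd, z, hz, he⟩ := exists_nv_eq hσ ha hb hs (neg_ne_zero.mpr hc)
  obtain ⟨e, he', hee⟩ := exists_rot he
  exact ⟨e, he', e * d, mul_mem_cir he' hd, z, hz, by linear_combination hee⟩

/-- For even `q`, in two different ways. -/
lemma exists_three_two (hq : Even q) {a b c s : F} (ha : a ≠ 0) (hb : b ≠ 0) (hc : c ≠ 0)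
    (hs : s ≠ 0) : ∃ x ∈ cir σ, ∃ y ∈ cir σ, ∃ z ∈ cir σ, ∃ x' ∈ cir σ, ∃ y' ∈ cir σ,
      ∃ z' ∈ cir σ, a * x + b * y + c * z = s ∧ a * x' + b * y' + c * z' = s ∧ z ≠ z' := by
  obtain ⟨P, hP, P', hP', hne⟩ := one_lt_card.mp
    ((one_le_card_inter hσ ha hb hs (neg_ne_zero.mpr hc)).2 hq)
  have key : ∀ P ∈ (cir σ).image (nv σ a b) ∩ (cir σ).image (nv σ s (-c)),
      ∃ x ∈ cir σ, ∃ y ∈ cir σ, ∃ z ∈ cir σ, a * x + b * y + c * z = s ∧ nv σ s (-c) z = P := by
    intro P hP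
    rw [mem_inter, mem_image, mem_image] at hP
    obtain ⟨⟨d, hd, hd'⟩, z, hz, hz'⟩ := hP
    obtain ⟨e, he', hee⟩ := exists_rot (a := a + b * d) (b := s + -c * z) (hd'.trans hz'.symm)
    exact ⟨e, he', e * d, mul_mem_cir he' hd, z, hz, by linear_combination hee, hz'⟩
  obtain ⟨x, hx, y, hy, z, hz, h1, hzP⟩ := key P hP
  obtain ⟨x', hx', y', hy', z', hz', h2, hzP'⟩ := key P' hP'
  exact ⟨x, hx, y, hy, z, hz, x', hx', y', hy', z', hz', h1, h2,
    fun h => hne (by rw [← hzP, ← hzP', h])⟩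

omit hσ in
/-- Bezout for exponents. -/
lemma exists_pow_eq {e₁ e₂ : ℕ} (he : Nat.Coprime e₁ e₂) {π : F} (hπ : π ∈ cir σ) :
    ∃ c₁ ∈ cir σ, ∃ c₂ ∈ cir σ, c₁ ^ e₁ * c₂ ^ e₂ = π := by
  have hb : (1 : ℤ) = e₁ * Nat.gcdA e₁ e₂ + e₂ * Nat.gcdB e₁ e₂ := by
    rw [← Nat.gcd_eq_gcd_ab, he.gcd_eq_one, Nat.cast_one]
  refine ⟨π ^ Nat.gcdA e₁ e₂, zpow_mem_cir hπ _, π ^ Nat.gcdB e₁ e₂, zpow_mem_cir hπ _, ?_⟩
  rw [← zpow_natCast, ← zpow_natCast, ← zpow_mul, ← zpow_mul,
    ← zpow_add₀ (ne_zero_of_mem_cir hπ), mul_comm _ (e₁ : ℤ), mul_comm _ (e₂ : ℤ), ← hb, zpow_one]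

end Conj

end CfsgLib.UMon
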