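import Cfsg.Agent.Lib.Geometric.UnitaryMonomial.Circle

/-!
Vanishing sums `Σ d_l a_l` with `d` of norm one and product one, in two ways differing on few
coordinates.
-/

set_option autoImplicit false

namespace CfsgLib.UMon

open Finset

variable {F : Type*} [Field F] [Fintype F] [DecidableEq F] {σ : F ≃+* F} {q : ℕ}
variable {α : Type*} [DecidableEq α]

/-- Two vanishing sums with equal products on five coordinates. -/
lemma exists_pair_five (hσ : IsConj σ q) {a : Fin 5 → F} (ha : ∀ i, a i ≠ 0) :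
    ∃ d d' : Fin 5 → F, (∀ i, d i ∈ cir σ) ∧ (∀ i, d' i ∈ cir σ) ∧ ∑ i, a i * d i = 0 ∧
      ∑ i, a i * d' i = 0 ∧ ∏ i, d i = ∏ i, d' i ∧ d ≠ d' := by
  set good := (cir σ).filter fun t => a 0 + a 1 * t ≠ 0 with hgood
  have hg : q ≤ good.card := by
    have h1 : ((cir σ).filter fun t => a 0 + a 1 * t = 0).card ≤ 1 := card_le_one.mpr fun x hx y hy => by
      simp only [mem_filter] at hx hy
      exact mul_left_cancel₀ (ha 1) (by linear_combination hx.2 - hy.2)
    have h2 : ((cir σ).filter fun t => a 0 + a 1 * t = 0).card + good.card = (cir σ).card :=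
      card_filter_add_card_filter_not _
    rw [card_cir hσ] at h2
    omega
  have hsol : ∀ t, ∃ g : Fin 5 → F, t ∈ good → (∀ i, g i ∈ cir σ) ∧ ∑ i, a i * g i = 0 ∧
      g 0 = 1 ∧ g 1 = t := by
    intro t
    by_cases ht : t ∈ good
    · rw [hgood, mem_filter] at ht
      obtain ⟨x, hx, y, hy, z, hz, he⟩ :=
        exists_three hσ (ha 2) (ha 3) (ha 4) (neg_ne_zero.mpr ht.2)
      refine ⟨![1, t, x, y, z], fun _ => ⟨fun i => ?_, ?_, rfl, rfl⟩⟩
      · fin_cases i <;> simp [one_mem_cir, ht.1, hx, hy, hz]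
      · rw [Fin.sum_univ_five]
        simp
        linear_combination he
    · exact ⟨fun _ => 1, fun h => absurd h ht⟩
  choose g hg' using hsol
  obtain ⟨⟨e, t⟩, h1, ⟨e', t'⟩, h2, hne, heq⟩ :=
    exists_ne_map_eq_of_card_lt_of_maps_to (s := cir σ ×ˢ good) (t := cir σ)
      (f := fun p : F × F => ∏ i, p.1 * g p.2 i) (by
        rw [card_product, card_cir hσ]
        have := hσ.two_le
        nlinarith)
      (fun p hp => by
        have hp' := mem_product.mp hp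
        exact prod_mem_cir _ _ fun i _ => mul_mem_cir hp'.1 ((hg' _ hp'.2).1 i))
  simp only [mem_product] at h1 h2
  obtain ⟨hgc, hgs, hg0, hg1⟩ := hg' t h1.2
  obtain ⟨hgc', hgs', hg0', hg1'⟩ := hg' t' h2.2
  refine ⟨fun i => e * g t i, fun i => e' * g t' i, fun i => mul_mem_cir h1.1 (hgc i),
    fun i => mul_mem_cir h2.1 (hgc' i), ?_, ?_, heq, fun h => hne ?_⟩
  · simp only [mul_left_comm _ e, ← mul_sum, hgs, mul_zero]
  · simp only [mul_left_comm _ e', ← mul_sum, hgs', mul_zero]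
  · have e0 : e = e' := by simpa [hg0, hg0'] using congrFun h 0
    have e1 : e * t = e' * t' := by simpa [hg1, hg1'] using congrFun h 1
    rw [← e0] at e1 ⊢
    rw [mul_left_cancel₀ (ne_zero_of_mem_cir h1.1) e1]

/-- For even `q`, two sums with the same value and equal products on four coordinates. -/
lemma exists_pair_four (hσ : IsConj σ q) (hq : Even q) {a : Fin 4 → F} (ha : ∀ i, a i ≠ 0) (s : F) :
    ∃ d d' : Fin 4 → F, (∀ i, d i ∈ cir σ) ∧ (∀ i, d' i ∈ cir σ) ∧ ∑ i, a i * d i = s ∧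
      ∑ i, a i * d' i = s ∧ ∏ i, d i = ∏ i, d' i ∧ d ≠ d' := by
  set good := (cir σ).filter fun t => s - a 0 * t ≠ 0 with hgood
  have hg : q ≤ good.card := by
    have h1 : ((cir σ).filter fun t => s - a 0 * t = 0).card ≤ 1 := card_le_one.mpr fun x hx y hy => by
      simp only [mem_filter] at hx hy
      exact mul_left_cancel₀ (ha 0) (by linear_combination hy.2 - hx.2)
    have h2 : ((cir σ).filter fun t => s - a 0 * t = 0).card + good.card = (cir σ).card :=
      card_filter_add_card_filter_not _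
    rw [card_cir hσ] at h2
    omega
  have hsol : ∀ t, ∃ g g' : Fin 4 → F, t ∈ good → (∀ i, g i ∈ cir σ) ∧ (∀ i, g' i ∈ cir σ) ∧
      ∑ i, a i * g i = s ∧ ∑ i, a i * g' i = s ∧ g 0 = t ∧ g' 0 = t ∧ g ≠ g' := by
    intro t
    by_cases ht : t ∈ good
    · rw [hgood, mem_filter] at ht
      obtain ⟨x, hx, y, hy, z, hz, x', hx', y', hy', z', hz', he, he', hne⟩ :=
        exists_three_two hσ hq (ha 1) (ha 2) (ha 3) ht.2
      refine ⟨![t, x, y, z], ![t, x', y', z'], fun _ => ⟨fun i => ?_, fun i => ?_, ?_, ?_, rfl, rfl,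
        fun h => hne ?_⟩⟩
      · fin_cases i <;> simp [ht.1, hx, hy, hz]
      · fin_cases i <;> simp [ht.1, hx', hy', hz']
      · rw [Fin.sum_univ_four]; simp; linear_combination he
      · rw [Fin.sum_univ_four]; simp; linear_combination he'
      · simpa using congrFun h 3
    · exact ⟨1, 1, fun h => absurd h ht⟩
  choose g g' hgg using hsol
  let pick : F × Bool → Fin 4 → F := fun p => bif p.2 then g' p.1 else g p.1
  have hpick : ∀ p : F × Bool, p.1 ∈ good →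
      (∀ i, pick p i ∈ cir σ) ∧ ∑ i, a i * pick p i = s ∧ pick p 0 = p.1 := by
    rintro ⟨t, b⟩ ht
    obtain ⟨h1, h2, h3, h4, h5, h6, -⟩ := hgg t ht
    cases b
    exacts [⟨h1, h3, h5⟩, ⟨h2, h4, h6⟩]
  obtain ⟨u, hu, v, hv, hne, heq⟩ :=
    exists_ne_map_eq_of_card_lt_of_maps_to (s := good ×ˢ (univ : Finset Bool)) (t := cir σ)
      (f := fun p => ∏ i, pick p i) (by
        rw [card_product, card_cir hσ, card_univ, Fintype.card_bool]
        have := hσ.two_le
        omega)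
      (fun p hp => prod_mem_cir _ _ fun i _ => (hpick p (mem_product.mp hp).1).1 i)
  obtain ⟨hu1, hu2, hu0⟩ := hpick u (mem_product.mp hu).1
  obtain ⟨hv1, hv2, hv0⟩ := hpick v (mem_product.mp hv).1
  refine ⟨pick u, pick v, hu1, hv1, hu2, hv2, heq, fun h => hne ?_⟩
  have hne' := (hgg u.1 (mem_product.mp hu).1).2.2.2.2.2.2
  obtain ⟨t, b⟩ := u
  obtain ⟨t', b'⟩ := v
  obtain rfl : t = t' := hu0.symm.trans ((congrFun h 0).trans hv0)
  cases b <;> cases b'
  exacts [rfl, absurd h hne', absurd h.symm hne', rfl]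

/-- Transfer a pair from `Fin k` to a set of `k` coordinates. -/
lemma exists_pair_on {k : ℕ} {C : Finset α} (hC : C.card = k) (a : α → F) {s : F}
    (h : ∀ b : Fin k → F, (∀ i, b i ≠ 0) → ∃ d d' : Fin k → F, (∀ i, d i ∈ cir σ) ∧
      (∀ i, d' i ∈ cir σ) ∧ ∑ i, b i * d i = s ∧ ∑ i, b i * d' i = s ∧
      ∏ i, d i = ∏ i, d' i ∧ d ≠ d')
    (ha : ∀ l ∈ C, a l ≠ 0) :
    ∃ d d' : α → F, (∀ l, d l ∈ cir σ) ∧ (∀ l, d' l ∈ cir σ) ∧ ∑ l ∈ C, a l * d l = s ∧
      ∑ l ∈ C, a l * d' l = s ∧ ∏ l ∈ C, d l = ∏ l ∈ C, d' l ∧ ∃ l ∈ C, d l ≠ d' l := by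
  subst hC
  set e := C.equivFin
  obtain ⟨d, d', hd, hd', hs, hs', hp, hne⟩ :=
    h (fun i => a (e.symm i : α)) (fun i => ha _ (e.symm i).2)
  let ext : (Fin C.card → F) → α → F := fun d l => if h : l ∈ C then d (e ⟨l, h⟩) else 1
  have hext : ∀ d : Fin C.card → F, ∀ i, ext d (e.symm i : α) = d i := fun d i => by simp [ext]
  have hmem : ∀ d : Fin C.card → F, (∀ i, d i ∈ cir σ) → ∀ l, ext d l ∈ cir σ := fun d hd l => by
    simp only [ext]; split_ifs
    exacts [hd _, one_mem_cir]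
  have hsum : ∀ d : Fin C.card → F, ∑ l ∈ C, a l * ext d l = ∑ i, a (e.symm i : α) * d i :=
    fun d => by
      rw [← sum_coe_sort, ← e.symm.sum_comp]
      exact Finset.sum_congr rfl fun i _ => by rw [hext]
  have hprod : ∀ d : Fin C.card → F, ∏ l ∈ C, ext d l = ∏ i, d i := fun d => by
    rw [← prod_coe_sort, ← e.symm.prod_comp]
    exact Finset.prod_congr rfl fun i _ => hext d i
  obtain ⟨i, hi⟩ := Function.ne_iff.mp hne
  exact ⟨ext d, ext d', hmem d hd, hmem d' hd', by rw [hsum, hs], by rw [hsum, hs'],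
    by rw [hprod, hprod, hp], _, (e.symm i).2, by rw [hext, hext]; exact hi⟩

/-- A vanishing sum on a set with four non-zero coefficients, trivial outside four of them. -/
lemma exists_zero_sum (hσ : IsConj σ q) {S : Finset α} {a : α → F}
    (hS : 4 ≤ (S.filter fun l => a l ≠ 0).card) :
    ∃ d : α → F, (∀ l, d l ∈ cir σ) ∧ ∑ l ∈ S, a l * d l = 0 ∧ ∀ l, l ∉ S → d l = 1 := by
  obtain ⟨T, hT, hT4⟩ := exists_subset_card_eq hS
  set e := T.equivFinOfCardEq hT4
  let l : Fin 4 → α := fun i => (e.symm i : α)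
  have hl : ∀ i, l i ∈ S ∧ a (l i) ≠ 0 := fun i => mem_filter.mp (hT (e.symm i).2)
  have hinj : Function.Injective l := fun i j h => e.symm.injective (Subtype.ext h)
  set R := ∑ m ∈ S, a m - a (l 0) - a (l 1) - a (l 2) - a (l 3) with hR
  obtain ⟨x₀, hx₀, hne⟩ : ∃ x ∈ cir σ, -(R + a (l 0) * x) ≠ 0 := by
    obtain ⟨c, hc, hc1⟩ := exists_ne_one hσ
    by_cases h : -(R + a (l 0) * 1) = 0
    · refine ⟨c, hc, fun h' => hc1 (mul_left_cancel₀ (hl 0).2 ?_)⟩
      linear_combination h - h'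
    · exact ⟨1, one_mem_cir, h⟩
  obtain ⟨x, hx, y, hy, z, hz, he⟩ := exists_three hσ (hl 1).2 (hl 2).2 (hl 3).2 hne
  set d : α → F := fun m => if m = l 0 then x₀ else if m = l 1 then x else if m = l 2 then y
    else if m = l 3 then z else 1 with hd
  have n01 : l 0 ≠ l 1 := hinj.ne (by decide)
  have n02 : l 0 ≠ l 2 := hinj.ne (by decide)
  have n03 : l 0 ≠ l 3 := hinj.ne (by decide)
  have n12 : l 1 ≠ l 2 := hinj.ne (by decide)
  have n13 : l 1 ≠ l 3 := hinj.ne (by decide)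
  have n23 : l 2 ≠ l 3 := hinj.ne (by decide)
  refine ⟨d, fun m => ?_, ?_, fun m hm => ?_⟩
  · simp only [hd]; split_ifs
    exacts [hx₀, hx, hy, hz, one_mem_cir]
  · have h : ∀ m, a m * d m = a m + (if m = l 0 then a (l 0) * (x₀ - 1) else 0) +
        (if m = l 1 then a (l 1) * (x - 1) else 0) + (if m = l 2 then a (l 2) * (y - 1) else 0) +
        (if m = l 3 then a (l 3) * (z - 1) else 0) := by
      intro m
      by_cases h0 : m = l 0
      · subst h0; simp [hd, n01, n02, n03]; ring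
      by_cases h1 : m = l 1
      · subst h1; simp [hd, h0, n12, n13]; ring
      by_cases h2 : m = l 2
      · subst h2; simp [hd, h0, h1, n23]; ring
      by_cases h3 : m = l 3
      · subst h3; simp [hd, h0, h1, h2]; ring
      simp [hd, h0, h1, h2, h3]
    rw [Finset.sum_congr rfl fun m _ => h m]
    simp only [sum_add_distrib, sum_ite_eq', (hl _).1, if_true]
    linear_combination he + hR
  · have hh : ∀ i, m ≠ l i := fun i e' => hm (e' ▸ (hl i).1)
    simp [hd, hh]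

variable [Fintype α]

/-- The case of at least thirteen coordinates. -/
lemma exists_pair_large (hσ : IsConj σ q) (hn : 13 ≤ Fintype.card α) {a : α → F} (ha : ∀ l, a l ≠ 0) :
    ∃ d d' : α → F, (∀ l, d l ∈ cir σ) ∧ (∀ l, d' l ∈ cir σ) ∧ ∏ l, d l = 1 ∧ ∏ l, d' l = 1 ∧
      ∑ l, a l * d l = 0 ∧ ∑ l, a l * d' l = 0 ∧ d ≠ d' ∧
      ∃ C : Finset α, C.card ≤ 5 ∧ ∀ l, l ∉ C → d l = d' l := by
  obtain ⟨C, -, hC⟩ := exists_subset_card_eq (s := (univ : Finset α)) (n := 5) (by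
    rw [card_univ]; omega)
  obtain ⟨A, hA, hA4⟩ := exists_subset_card_eq (s := Cᶜ) (n := 4) (by rw [card_compl]; omega)
  set B := (C ∪ A)ᶜ with hB
  have hCA : Disjoint C A := disjoint_right.mpr fun x hx => mem_compl.mp (hA hx)
  have hBc : 4 ≤ (B.filter fun l => a l ≠ 0).card := by
    rw [filter_true_of_mem fun l _ => ha l, hB, card_compl, card_union_of_disjoint hCA]
    omega
  obtain ⟨dB, hdB, hsB, -⟩ := exists_zero_sum hσ hBc
  obtain ⟨dA, hdA, hsA, -⟩ := exists_zero_sum hσ (S := A) (a := a)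
    (by rw [filter_true_of_mem fun l _ => ha l]; omega)
  obtain ⟨dC, dC', hdC, hdC', hsC, hsC', hpC, l₀, hl₀, hne⟩ :=
    exists_pair_on hC a (fun b hb => exists_pair_five hσ hb) fun l _ => ha l
  obtain ⟨c₁, hc₁, c₂, hc₂, hcc⟩ := exists_pow_eq (σ := σ) (show Nat.Coprime 5 4 by norm_num)
    (inv_mem_cir (mul_mem_cir (mul_mem_cir (prod_mem_cir C dC fun i _ => hdC i)
      (prod_mem_cir A dA fun i _ => hdA i)) (prod_mem_cir B dB fun i _ => hdB i)))
  let mk : (α → F) → α → F := fun dC l =>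
    if l ∈ C then c₁ * dC l else if l ∈ A then c₂ * dA l else dB l
  have hsplit : ∀ h : α → F, ∑ l, h l = ∑ l ∈ C, h l + ∑ l ∈ A, h l + ∑ l ∈ B, h l := fun h => by
    rw [← sum_union hCA, hB, sum_add_sum_compl]
  have hsplit' : ∀ h : α → F, ∏ l, h l = (∏ l ∈ C, h l) * (∏ l ∈ A, h l) * ∏ l ∈ B, h l :=
    fun h => by rw [← prod_union hCA, hB, prod_mul_prod_compl]
  have hmem : ∀ f : α → F, (∀ l, f l ∈ cir σ) → ∀ l, mk f l ∈ cir σ := fun f hf l => by
    simp only [mk]; split_ifs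
    exacts [mul_mem_cir hc₁ (hf l), mul_mem_cir hc₂ (hdA l), hdB l]
  have onC : ∀ (f : α → F), ∀ l ∈ C, mk f l = c₁ * f l := fun f l hl => by simp [mk, hl]
  have onA : ∀ (f : α → F), ∀ l ∈ A, mk f l = c₂ * dA l := fun f l hl => by
    simp [mk, hl, disjoint_right.mp hCA hl]
  have onB : ∀ (f : α → F), ∀ l ∈ B, mk f l = dB l := fun f l hl => by
    simp [hB] at hl; simp [mk, hl]
  have hsum : ∀ f : α → F, ∑ l ∈ C, a l * f l = 0 → ∑ l, a l * mk f l = 0 := fun f hf => by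
    rw [hsplit, Finset.sum_congr rfl fun l hl => by rw [onC f l hl, mul_left_comm],
      Finset.sum_congr (s₁ := A) rfl fun l hl => by rw [onA f l hl, mul_left_comm],
      Finset.sum_congr (s₁ := B) rfl fun l hl => by rw [onB f l hl], ← mul_sum, ← mul_sum, hf, hsA,
      hsB]
    ring
  have hprod : ∀ f : α → F, ∏ l ∈ C, f l = ∏ l ∈ C, dC l → ∏ l, mk f l = 1 := fun f hf => by
    rw [hsplit', Finset.prod_congr rfl (onC f), Finset.prod_congr rfl (onA f),
      Finset.prod_congr rfl (onB f), prod_mul_distrib, prod_mul_distrib, prod_const, prod_const,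
      hC, hA4, hf]
    have h0 := ne_zero_of_mem_cir (mul_mem_cir (mul_mem_cir (prod_mem_cir C dC fun i _ => hdC i)
      (prod_mem_cir A dA fun i _ => hdA i)) (prod_mem_cir B dB fun i _ => hdB i))
    linear_combination (∏ l ∈ C, dC l) * (∏ l ∈ A, dA l) * (∏ l ∈ B, dB l) * hcc +
      mul_inv_cancel₀ h0
  refine ⟨mk dC, mk dC', hmem _ hdC, hmem _ hdC', hprod _ rfl, hprod _ hpC.symm, hsum _ hsC,
    hsum _ hsC', fun h => hne ?_, C, hC.le, fun l hl => by simp [mk, hl]⟩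
  have := congrFun h l₀
  rw [onC _ _ hl₀, onC _ _ hl₀] at this
  exact mul_left_cancel₀ (ne_zero_of_mem_cir hc₁) this

/-- Two blocks with vanishing sums, scaled to total product one. -/
lemma glue_blocks {a : α → F} {C : Finset α} {dC dC' dB : α → F} {c₁ c₂ : F} (hC : ∀ l, dC l ∈ cir σ)
    (hC' : ∀ l, dC' l ∈ cir σ) (hB : ∀ l, dB l ∈ cir σ) (hc₁ : c₁ ∈ cir σ) (hc₂ : c₂ ∈ cir σ)
    (hsC : ∑ l ∈ C, a l * dC l = 0) (hsC' : ∑ l ∈ C, a l * dC' l = 0)
    (hsB : ∑ l ∈ Cᶜ, a l * dB l = 0) (hpC : ∏ l ∈ C, dC l = ∏ l ∈ C, dC' l)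
    (hne : ∃ l ∈ C, dC l ≠ dC' l)
    (hπ : c₁ ^ C.card * c₂ ^ Cᶜ.card * ((∏ l ∈ C, dC l) * ∏ l ∈ Cᶜ, dB l) = 1) :
    ∃ d d' : α → F, (∀ l, d l ∈ cir σ) ∧ (∀ l, d' l ∈ cir σ) ∧ ∏ l, d l = 1 ∧ ∏ l, d' l = 1 ∧
      ∑ l, a l * d l = 0 ∧ ∑ l, a l * d' l = 0 ∧ d ≠ d' ∧ ∀ l, l ∉ C → d l = d' l := by
  let mk : (α → F) → α → F := fun f l => if l ∈ C then c₁ * f l else c₂ * dB l
  have onC : ∀ (f : α → F), ∀ l ∈ C, mk f l = c₁ * f l := fun f l hl => by simp [mk, hl]
  have onB : ∀ (f : α → F), ∀ l ∈ Cᶜ, mk f l = c₂ * dB l := fun f l hl => by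
    simp [mk, mem_compl.mp hl]
  have hmem : ∀ f : α → F, (∀ l, f l ∈ cir σ) → ∀ l, mk f l ∈ cir σ := fun f hf l => by
    simp only [mk]; split_ifs
    exacts [mul_mem_cir hc₁ (hf l), mul_mem_cir hc₂ (hB l)]
  have hsum : ∀ f : α → F, ∑ l ∈ C, a l * f l = 0 → ∑ l, a l * mk f l = 0 := fun f hf => by
    rw [← sum_add_sum_compl C, Finset.sum_congr rfl fun l hl => by rw [onC f l hl, mul_left_comm],
      Finset.sum_congr (s₁ := Cᶜ) rfl fun l hl => by rw [onB f l hl, mul_left_comm], ← mul_sum,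
      ← mul_sum, hf, hsB]
    ring
  have hprod : ∀ f : α → F, ∏ l ∈ C, f l = ∏ l ∈ C, dC l → ∏ l, mk f l = 1 := fun f hf => by
    rw [← prod_mul_prod_compl C, Finset.prod_congr rfl (onC f), Finset.prod_congr rfl (onB f),
      prod_mul_distrib, prod_mul_distrib, prod_const, prod_const, hf, ← hπ]
    ring
  refine ⟨mk dC, mk dC', hmem _ hC, hmem _ hC', hprod _ rfl, hprod _ hpC.symm, hsum _ hsC,
    hsum _ hsC', fun h => ?_, fun l hl => by simp [mk, hl]⟩
  obtain ⟨l, hl, hne⟩ := hne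
  have := congrFun h l
  rw [onC _ _ hl, onC _ _ hl] at this
  exact hne (mul_left_cancel₀ (ne_zero_of_mem_cir hc₁) this)

omit [Fintype α] in
/-- For odd `q`, a vanishing sum on six coordinates with product in either square class. -/
lemma exists_zero_sum_class (hσ : IsConj σ q) (hq : ¬ Even q) {S : Finset α} (hS : S.card = 6)
    {a : α → F} (ha : ∀ l ∈ S, a l ≠ 0) {ρ : F} (hρ : ρ ∈ cir σ) :
    ∃ d : α → F, (∀ l, d l ∈ cir σ) ∧ ∑ l ∈ S, a l * d l = 0 ∧
      ∃ c ∈ cir σ, c ^ 2 = ρ * ∏ l ∈ S, d l := by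
  obtain ⟨h, hh⟩ : ∃ h, q + 1 = 2 * h := by
    obtain ⟨r, hr⟩ := Nat.not_even_iff_odd.mp hq; exact ⟨r + 1, by omega⟩
  have hh0 : 0 < h := by omega
  -- squares of the circle
  have hsq : ∀ x ∈ cir σ, x ^ h = 1 → ∃ c ∈ cir σ, c ^ 2 = x := by
    intro x hx hx1
    set R := (cir σ).filter fun y => y ^ h = 1
    have hsub : (cir σ).image (· ^ 2) ⊆ R := fun y hy => by
      obtain ⟨c, hc, rfl⟩ := mem_image.mp hy
      refine mem_filter.mpr ⟨pow_mem_cir hc 2, ?_⟩
      rw [← pow_mul, ← hh, pow_card_cir hσ hc]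
    have h1 : (cir σ).card ≤ 2 * ((cir σ).image (· ^ 2)).card := card_le_mul_card_image _ 2
      fun b hb => by
        obtain ⟨c, -, rfl⟩ := mem_image.mp hb
        refine (card_le_card (t := {c, -c}) fun d hd => ?_).trans card_le_two
        rcases sq_eq_sq_iff_eq_or_eq_neg.mp (mem_filter.mp hd).2 with e | e <;> simp [e]
    have h2 : R.card ≤ h := by
      refine (card_le_card (t := Polynomial.nthRootsFinset h (1 : F)) fun y hy =>
        (Polynomial.mem_nthRootsFinset hh0 _).mpr (mem_filter.mp hy).2).trans ?_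
      rw [Polynomial.nthRootsFinset_def]
      exact (Multiset.toFinset_card_le _).trans (Polynomial.card_nthRoots _ _)
    have heq := eq_of_subset_of_card_le hsub (by rw [card_cir hσ] at h1; omega)
    have hxR : x ∈ R := mem_filter.mpr ⟨hx, hx1⟩
    rw [← heq, mem_image] at hxR
    exact hxR
  obtain ⟨u, hu⟩ : ∃ u : F, ¬ IsSquare u := FiniteField.exists_nonsquare fun h2 => hq (by
    have hev := FiniteField.even_card_of_char_two h2
    rw [hσ.card] at hev
    exact (Nat.even_pow.mp (Nat.even_iff.mpr hev)).1)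
  have hu0 : u ≠ 0 := fun h0 => hu (h0 ▸ IsSquare.zero)
  set κ := u / σ u with hκ
  have hσu : σ u ≠ 0 := (map_ne_zero σ).mpr hu0
  have hκc : κ ∈ cir σ := by
    rw [mem_cir, hκ, map_div₀, hσ.invol]; field_simp
  have hκh : κ ^ h = -1 := by
    have h2 : (κ ^ h) ^ 2 = 1 := by rw [← pow_mul, mul_comm h, ← hh, pow_card_cir hσ hκc]
    refine (sq_eq_one_iff.mp h2).resolve_left fun h1 => hu ?_
    rw [FiniteField.isSquare_iff (fun h2 => hq (by
      have hev := FiniteField.even_card_of_char_two h2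
      rw [hσ.card] at hev
      exact (Nat.even_pow.mp (Nat.even_iff.mpr hev)).1)) hu0, hσ.card]
    rw [hκ, div_pow, div_eq_one_iff_eq (pow_ne_zero _ hσu), hσ.pow, ← pow_mul] at h1
    have h3 : u ^ ((q - 1) * h) = 1 := by
      refine mul_right_cancel₀ (pow_ne_zero h hu0) ?_
      rw [one_mul, ← pow_add, ← Nat.succ_mul, Nat.succ_eq_add_one,
        Nat.sub_add_cancel (show 1 ≤ q by omega)]
      exact h1.symm
    have he : q ^ 2 / 2 = (q - 1) * h := by
      have e1 : q ^ 2 = 2 * ((q - 1) * h) + 1 := by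
        obtain ⟨q', rfl⟩ : ∃ q', q = q' + 1 := ⟨q - 1, by omega⟩
        rw [Nat.add_sub_cancel]
        linear_combination q' * hh
      omega
    rw [he, h3]
  set e := S.equivFinOfCardEq hS
  let l : Fin 6 → α := fun i => (e.symm i : α)
  have hl : ∀ i, a (l i) ≠ 0 := fun i => ha _ (e.symm i).2
  set s := -a (l 2) * u with hs
  have hs0 : s ≠ 0 := mul_ne_zero (neg_ne_zero.mpr (hl 2)) hu0
  obtain ⟨d, hd, z, hz, he1⟩ := exists_nv_eq hσ (hl 0) (hl 1) hs0 (neg_ne_zero.mpr (hl 2))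
  set z' := κ / z with hz'
  have hz'c : z' ∈ cir σ := div_mem_cir hκc hz
  have hnv : nv σ s (-a (l 2)) z' = nv σ s (-a (l 2)) z := by
    rw [nv_eq _ _ _ (mem_cir.mp hz'c), nv_eq _ _ _ (mem_cir.mp hz)]
    congr 1
    have hσz : σ z = z⁻¹ := (inv_eq_of_mem_cir hz).symm
    rw [hz', hκ, map_mul, map_mul, map_div₀, map_div₀, map_neg, hσ.invol, hσz, hs, map_mul, map_neg]
    have := ne_zero_of_mem_cir hz
    field_simp
    linear_combination (-(a (l 2) * σ (a (l 2)) * u)) * mem_cir.mp hz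
  obtain ⟨r, hr, hr1⟩ := exists_rot he1
  obtain ⟨r', hr', hr1'⟩ := exists_rot (he1.trans hnv.symm)
  obtain ⟨x, hx, y, hy, w, hw, he2⟩ := exists_three hσ (hl 3) (hl 4) (hl 5) (neg_ne_zero.mpr hs0)
  let mk : (Fin 6 → F) → α → F := fun v m => if hm : m ∈ S then v (e ⟨m, hm⟩) else 1
  have hmk : ∀ v : Fin 6 → F, (∀ i, v i ∈ cir σ) → (∀ m, mk v m ∈ cir σ) := fun v hv m => by
    simp only [mk]; split_ifs
    exacts [hv _, one_mem_cir]
  have hmki : ∀ (v : Fin 6 → F) i, mk v (l i) = v i := fun v i => by simp [mk, l]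
  have hsumv : ∀ v : Fin 6 → F, ∑ m ∈ S, a m * mk v m = ∑ i, a (l i) * v i := fun v => by
    rw [← sum_coe_sort, ← e.symm.sum_comp]
    exact Finset.sum_congr rfl fun i _ => by rw [show (e.symm i : α) = l i from rfl, hmki]
  have hprodv : ∀ v : Fin 6 → F, ∏ m ∈ S, mk v m = ∏ i, v i := fun v => by
    rw [← prod_coe_sort, ← e.symm.prod_comp]
    exact Finset.prod_congr rfl fun i _ => hmki v i
  have key : ∀ t ∈ cir σ, ∀ o ∈ cir σ, t * (a (l 0) + a (l 1) * d) = s + -a (l 2) * o →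
      (ρ * (t * (t * d) * o * x * y * w)) ^ h = 1 →
      ∃ f : α → F, (∀ m, f m ∈ cir σ) ∧ ∑ m ∈ S, a m * f m = 0 ∧
        ∃ c ∈ cir σ, c ^ 2 = ρ * ∏ m ∈ S, f m := by
    intro t ht o ho hto hpow
    set v : Fin 6 → F := ![t, t * d, o, x, y, w] with hv
    have hvc : ∀ i, v i ∈ cir σ := fun i => by
      fin_cases i <;> simp [hv, ht, ho, hx, hy, hw, mul_mem_cir ht hd]
    have hpv : ∏ i, v i = t * (t * d) * o * x * y * w := by
      rw [Fin.prod_univ_six]; simp [hv]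
    refine ⟨mk v, hmk v hvc, ?_, ?_⟩
    · rw [hsumv, Fin.sum_univ_six]
      simp [hv]
      linear_combination hto + he2
    · rw [hprodv, hpv]
      exact hsq _ (mul_mem_cir hρ (by rw [← hpv]; exact prod_mem_cir _ _ fun i _ => hvc i)) hpow
  by_cases hcls : (ρ * (r * (r * d) * z * x * y * w)) ^ h = 1
  · exact key r hr z hz hr1 hcls
  refine key r' hr' z' hz'c hr1' ?_
  have hA : ρ * (r * (r * d) * z * x * y * w) ∈ cir σ := mul_mem_cir hρ (mul_mem_cir (mul_mem_cir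
    (mul_mem_cir (mul_mem_cir (mul_mem_cir hr (mul_mem_cir hr hd)) hz) hx) hy) hw)
  have h2 : ((ρ * (r * (r * d) * z * x * y * w)) ^ h) ^ 2 = 1 := by
    rw [← pow_mul, mul_comm h, ← hh, pow_card_cir hσ hA]
  have h3 := (sq_eq_one_iff.mp h2).resolve_left hcls
  have hrel : ρ * (r' * (r' * d) * z' * x * y * w) =
      ρ * (r * (r * d) * z * x * y * w) * κ * (r' / (r * z)) ^ 2 := by
    have := ne_zero_of_mem_cir hr
    have := ne_zero_of_mem_cir hz
    rw [hz']; field_simp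
  rw [hrel, mul_pow, mul_pow, h3, hκh, ← pow_mul, ← hh,
    pow_card_cir hσ (div_mem_cir hr' (mul_mem_cir hr hz))]
  ring

/-- Two vanishing sums of product one that differ in few coordinates. -/
lemma exists_pair (hσ : IsConj σ q) (hn : 9 ≤ Fintype.card α) {a : α → F} (ha : ∀ l, a l ≠ 0) :
    ∃ d d' : α → F, (∀ l, d l ∈ cir σ) ∧ (∀ l, d' l ∈ cir σ) ∧ ∏ l, d l = 1 ∧ ∏ l, d' l = 1 ∧
      ∑ l, a l * d l = 0 ∧ ∑ l, a l * d' l = 0 ∧ d ≠ d' ∧
      ∃ C : Finset α, 2 * C.card < Fintype.card α ∧ ∀ l, l ∉ C → d l = d' l := by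
  by_cases h13 : 13 ≤ Fintype.card α
  · obtain ⟨d, d', h1, h2, h3, h4, h5, h6, h7, C, hC, hdC⟩ := exists_pair_large hσ h13 ha
    exact ⟨d, d', h1, h2, h3, h4, h5, h6, h7, C, by omega, hdC⟩
  by_cases h11 : 11 ≤ Fintype.card α
  · obtain ⟨C, -, hC⟩ := exists_subset_card_eq (s := (univ : Finset α)) (n := 5) (by
      rw [card_univ]; omega)
    obtain ⟨dB, hdB, hsB, -⟩ := exists_zero_sum hσ (S := Cᶜ) (a := a)
      (by rw [filter_true_of_mem fun l _ => ha l, card_compl]; omega)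
    obtain ⟨dC, dC', hdC, hdC', hsC, hsC', hpC, hne⟩ :=
      exists_pair_on hC a (fun b hb => exists_pair_five hσ hb) fun l _ => ha l
    have hco : Nat.Coprime C.card Cᶜ.card := by
      rw [card_compl, hC]
      rcases (show Fintype.card α = 11 ∨ Fintype.card α = 12 by omega) with e | e <;> rw [e] <;>
        norm_num
    have hπ := mul_mem_cir (prod_mem_cir C dC fun i _ => hdC i) (prod_mem_cir Cᶜ dB fun i _ => hdB i)
    obtain ⟨c₁, hc₁, c₂, hc₂, hcc⟩ := exists_pow_eq hco (inv_mem_cir hπ)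
    obtain ⟨d, d', h1, h2, h3, h4, h5, h6, h7, h8⟩ := glue_blocks hdC hdC' hdB hc₁ hc₂ hsC hsC' hsB
      hpC hne (by rw [hcc, inv_mul_cancel₀ (ne_zero_of_mem_cir hπ)])
    exact ⟨d, d', h1, h2, h3, h4, h5, h6, h7, C, by omega, h8⟩
  obtain ⟨C, -, hC⟩ := exists_subset_card_eq (s := (univ : Finset α)) (n := 4) (by
    rw [card_univ]; omega)
  by_cases h9 : Fintype.card α = 9
  · have hB : Cᶜ.card = 5 := by rw [card_compl]; omega
    obtain ⟨dB, hdB, hsB, -⟩ := exists_zero_sum hσ (S := Cᶜ) (a := a)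
      (by rw [filter_true_of_mem fun l _ => ha l, hB]; omega)
    obtain ⟨dC, dC', hdC, hdC', hsC, hsC', hpC, hne⟩ : ∃ dC dC' : α → F, (∀ l, dC l ∈ cir σ) ∧
        (∀ l, dC' l ∈ cir σ) ∧ ∑ l ∈ C, a l * dC l = 0 ∧ ∑ l ∈ C, a l * dC' l = 0 ∧
        ∏ l ∈ C, dC l = ∏ l ∈ C, dC' l ∧ ∃ l ∈ C, dC l ≠ dC' l := by
      by_cases hq : Even q
      · exact exists_pair_on hC a (fun b hb => exists_pair_four hσ hq hb 0) fun l _ => ha l
      obtain ⟨dC, hdC, hsC, -⟩ := exists_zero_sum hσ (S := C) (a := a)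
        (by rw [filter_true_of_mem fun l _ => ha l, hC])
      obtain ⟨l₀, hl₀⟩ := card_pos.mp (show 0 < C.card by omega)
      refine ⟨dC, fun l => -dC l, hdC, fun l => neg_mem_cir (hdC l), hsC,
        by simp only [mul_neg, sum_neg_distrib, hsC, neg_zero],
        by rw [prod_neg, hC]; norm_num, l₀, hl₀, fun h => ?_⟩
      have h2 : (2 : F) * dC l₀ = 0 := by linear_combination h
      have hev := FiniteField.even_card_of_char_two (F := F) (ringChar.eq_iff.mpr
        (CharP.charP_iff_prime_eq_zero Nat.prime_two |>.mpr (by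
          exact_mod_cast (mul_eq_zero.mp h2).resolve_right (ne_zero_of_mem_cir (hdC l₀)))))
      rw [hσ.card] at hev
      exact hq ((Nat.even_pow.mp (Nat.even_iff.mpr hev)).1)
    have hπ := mul_mem_cir (prod_mem_cir C dC fun i _ => hdC i) (prod_mem_cir Cᶜ dB fun i _ => hdB i)
    obtain ⟨c₁, hc₁, c₂, hc₂, hcc⟩ := exists_pow_eq (σ := σ) (show Nat.Coprime 4 5 by norm_num)
      (inv_mem_cir hπ)
    obtain ⟨d, d', h1, h2, h3, h4, h5, h6, h7, h8⟩ := glue_blocks hdC hdC' hdB hc₁ hc₂ hsC hsC' hsB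
      hpC hne (by rw [hC, hB, hcc, inv_mul_cancel₀ (ne_zero_of_mem_cir hπ)])
    exact ⟨d, d', h1, h2, h3, h4, h5, h6, h7, C, by omega, h8⟩
  have hB : Cᶜ.card = 6 := by rw [card_compl]; omega
  by_cases hq : Even q
  · obtain ⟨dB, hdB, hsB, -⟩ := exists_zero_sum hσ (S := Cᶜ) (a := a)
      (by rw [filter_true_of_mem fun l _ => ha l, hB]; omega)
    obtain ⟨dC, dC', hdC, hdC', hsC, hsC', hpC, hne⟩ :=
      exists_pair_on hC a (fun b hb => exists_pair_four hσ hq hb 0) fun l _ => ha l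
    have hco : Nat.Coprime 4 (q + 1) := by
      obtain ⟨r, rfl⟩ := hq
      have : Nat.Coprime 2 (r + r + 1) :=
        (Nat.Prime.coprime_iff_not_dvd Nat.prime_two).mpr (by omega)
      simpa using this.pow_left 2
    have hπ := mul_mem_cir (prod_mem_cir C dC fun i _ => hdC i) (prod_mem_cir Cᶜ dB fun i _ => hdB i)
    obtain ⟨c₁, hc₁, c₂, hc₂, hcc⟩ := exists_pow_eq hco (inv_mem_cir hπ)
    rw [pow_card_cir hσ hc₂, mul_one] at hcc
    obtain ⟨d, d', h1, h2, h3, h4, h5, h6, h7, h8⟩ := glue_blocks hdC hdC' hdB hc₁ one_mem_cir hsC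
      hsC' hsB hpC hne (by rw [hC, one_pow, mul_one, hcc, inv_mul_cancel₀ (ne_zero_of_mem_cir hπ)])
    exact ⟨d, d', h1, h2, h3, h4, h5, h6, h7, C, by omega, h8⟩
  obtain ⟨dC, hdC, hsC, -⟩ := exists_zero_sum hσ (S := C) (a := a)
    (by rw [filter_true_of_mem fun l _ => ha l, hC])
  have hπC := prod_mem_cir C dC fun i _ => hdC i
  obtain ⟨dB, hdB, hsB, c, hc, hcc⟩ := exists_zero_sum_class hσ hq hB (fun l _ => ha l) hπC
  obtain ⟨l₀, hl₀⟩ := card_pos.mp (show 0 < C.card by omega)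
  obtain ⟨d, d', h1, h2, h3, h4, h5, h6, h7, h8⟩ := glue_blocks (dC' := fun l => -dC l) hdC
    (fun l => neg_mem_cir (hdC l)) hdB hc (inv_mem_cir hc) hsC
    (by simp only [mul_neg, sum_neg_distrib, hsC, neg_zero]) hsB
    (by rw [prod_neg, hC]; norm_num) ⟨l₀, hl₀, fun h => by
      have h2 : (2 : F) * dC l₀ = 0 := by linear_combination h
      have hev := FiniteField.even_card_of_char_two (F := F) (ringChar.eq_iff.mpr
        (CharP.charP_iff_prime_eq_zero Nat.prime_two |>.mpr (by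
          exact_mod_cast (mul_eq_zero.mp h2).resolve_right (ne_zero_of_mem_cir (hdC l₀)))))
      rw [hσ.card] at hev
      exact hq ((Nat.even_pow.mp (Nat.even_iff.mpr hev)).1)⟩
    (by
      have hc0 := ne_zero_of_mem_cir hc
      rw [hC, hB, ← hcc, inv_pow]
      field_simp)
  exact ⟨d, d', h1, h2, h3, h4, h5, h6, h7, C, by omega, h8⟩

/-- For even `q`, the same scaling two coordinates with vanishing sum. -/
lemma exists_pair_even_scaled (hσ : IsConj σ q) (hq : Even q) {a : α → F} {P : Finset α}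
    (hn : 7 ≤ (Pᶜ.filter fun l => a l ≠ 0).card) (hP0 : 0 < P.card) (hP2 : P.card ≤ 2)
    (hP : ∑ l ∈ P, a l = 0) :
    ∃ d d' : α → F, (∀ l, d l ∈ cir σ) ∧ (∀ l, d' l ∈ cir σ) ∧ ∏ l, d l = 1 ∧ ∏ l, d' l = 1 ∧
      ∑ l, a l * d l = 0 ∧ ∑ l, a l * d' l = 0 ∧ d ≠ d' ∧ (∃ u, ∀ l ∈ P, d l = u ∧ d' l = u) ∧
      ∃ C : Finset α, C.card ≤ 4 ∧ ∀ l, l ∉ C → d l = d' l := by
  obtain ⟨C, hC, hC4⟩ := exists_subset_card_eq (le_trans (show 4 ≤ 7 by norm_num) hn)
  have hCP : ∀ l ∈ C, l ∉ P ∧ a l ≠ 0 := fun l hl => by simpa using hC hl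
  set B := (C ∪ P)ᶜ
  have hdis : Disjoint C P := disjoint_left.mpr fun l hl => (hCP l hl).1
  obtain ⟨dC, dC', hdC, hdC', hsC, hsC', hpC, l₀, hl₀, hne⟩ :=
    exists_pair_on hC4 a (fun b hb => exists_pair_four hσ hq hb (-∑ l ∈ B, a l))
      fun l hl => (hCP l hl).2
  have hco : Nat.Coprime P.card (q + 1) := by
    rcases (show P.card = 1 ∨ P.card = 2 by omega) with e | e <;> rw [e]
    · exact Nat.coprime_one_left _
    · obtain ⟨r, rfl⟩ := hq
      exact (Nat.Prime.coprime_iff_not_dvd Nat.prime_two).mpr (by omega)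
  have hπ := prod_mem_cir C dC fun i _ => hdC i
  obtain ⟨u, hu, u₂, hu₂, hcc⟩ := exists_pow_eq hco (inv_mem_cir hπ)
  rw [pow_card_cir hσ hu₂, mul_one] at hcc
  let mk : (α → F) → α → F := fun f l => if l ∈ C then f l else if l ∈ P then u else 1
  have onC : ∀ (f : α → F), ∀ l ∈ C, mk f l = f l := fun f l hl => by simp [mk, hl]
  have onP : ∀ (f : α → F), ∀ l ∈ P, mk f l = u := fun f l hl => by
    simp [mk, hl, disjoint_right.mp hdis hl]
  have onB : ∀ (f : α → F), ∀ l ∈ B, mk f l = 1 := fun f l hl => by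
    simp [B] at hl; simp [mk, hl]
  have hmem : ∀ f : α → F, (∀ l, f l ∈ cir σ) → ∀ l, mk f l ∈ cir σ := fun f hf l => by
    simp only [mk]; split_ifs
    exacts [hf l, hu, one_mem_cir]
  have hsum : ∀ f : α → F, ∑ l ∈ C, a l * f l = -∑ l ∈ B, a l → ∑ l, a l * mk f l = 0 := fun f hf => by
    rw [← sum_add_sum_compl (C ∪ P), sum_union hdis,
      Finset.sum_congr rfl fun l hl => by rw [onC f l hl],
      Finset.sum_congr (s₁ := P) rfl fun l hl => by rw [onP f l hl],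
      Finset.sum_congr (s₁ := (C ∪ P)ᶜ) rfl fun l hl => by rw [onB f l hl, mul_one], ← sum_mul, hP, hf]
    ring
  have hprod : ∀ f : α → F, ∏ l ∈ C, f l = ∏ l ∈ C, dC l → ∏ l, mk f l = 1 := fun f hf => by
    rw [← prod_mul_prod_compl (C ∪ P), prod_union hdis, Finset.prod_congr rfl (onC f),
      Finset.prod_congr rfl (onP f), prod_eq_one (onB f), mul_one, prod_const, hf, hcc,
      mul_inv_cancel₀ (ne_zero_of_mem_cir hπ)]
  refine ⟨mk dC, mk dC', hmem _ hdC, hmem _ hdC', hprod _ rfl, hprod _ hpC.symm, hsum _ hsC,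
    hsum _ hsC', fun h => hne ?_, ⟨u, fun l hl => ⟨onP _ l hl, onP _ l hl⟩⟩, C, hC4.le,
    fun l hl => by simp [mk, hl]⟩
  have := congrFun h l₀
  rwa [onC _ _ hl₀, onC _ _ hl₀] at this

/-- For even `q`, the same avoiding two coordinates, using a coordinate with coefficient zero. -/
lemma exists_pair_even_zero (hσ : IsConj σ q) (hq : Even q) {a : α → F} {P : Finset α} {l₀ : α}
    (hl₀ : l₀ ∉ P) (h0 : a l₀ = 0) (hn : 4 ≤ (Pᶜ.filter fun l => a l ≠ 0).card) :
    ∃ d d' : α → F, (∀ l, d l ∈ cir σ) ∧ (∀ l, d' l ∈ cir σ) ∧ ∏ l, d l = 1 ∧ ∏ l, d' l = 1 ∧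
      ∑ l, a l * d l = 0 ∧ ∑ l, a l * d' l = 0 ∧ d ≠ d' ∧ (∃ u, ∀ l ∈ P, d l = u ∧ d' l = u) ∧
      ∃ C : Finset α, C.card ≤ 4 ∧ ∀ l, l ∉ C → d l = d' l := by
  obtain ⟨T, hT, hT4⟩ := exists_subset_card_eq hn
  set e := T.equivFinOfCardEq hT4
  let l : Fin 4 → α := fun i => (e.symm i : α)
  have hl : ∀ i, l i ∉ P ∧ a (l i) ≠ 0 := fun i => by simpa using hT (e.symm i).2
  have hinj : Function.Injective l := fun i j h => e.symm.injective (Subtype.ext h)
  have hl0 : ∀ i, l i ≠ l₀ := fun i h => (hl i).2 (h ▸ h0)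
  set R := ∑ m, a m - a (l 0) - a (l 1) - a (l 2) - a (l 3) with hR
  obtain ⟨x₀, hx₀, hs⟩ : ∃ x ∈ cir σ, -(R + a (l 0) * x) ≠ 0 := by
    obtain ⟨c, hc, hc1⟩ := exists_ne_one hσ
    by_cases h : -(R + a (l 0) * 1) = 0
    · refine ⟨c, hc, fun h' => hc1 (mul_left_cancel₀ (hl 0).2 ?_)⟩
      linear_combination h - h'
    · exact ⟨1, one_mem_cir, h⟩
  obtain ⟨x, hx, y, hy, z, hz, x', hx', y', hy', z', hz', he, he', hne⟩ :=
    exists_three_two hσ hq (hl 1).2 (hl 2).2 (hl 3).2 hs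
  let mk : F → F → F → α → F := fun v₁ v₂ v₃ m => if m = l 0 then x₀ else if m = l 1 then v₁ else
    if m = l 2 then v₂ else if m = l 3 then v₃ else if m = l₀ then (x₀ * v₁ * v₂ * v₃)⁻¹ else 1
  have n01 : l 0 ≠ l 1 := hinj.ne (by decide)
  have n02 : l 0 ≠ l 2 := hinj.ne (by decide)
  have n03 : l 0 ≠ l 3 := hinj.ne (by decide)
  have n12 : l 1 ≠ l 2 := hinj.ne (by decide)
  have n13 : l 1 ≠ l 3 := hinj.ne (by decide)
  have n23 : l 2 ≠ l 3 := hinj.ne (by decide)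
  have key : ∀ v₁ ∈ cir σ, ∀ v₂ ∈ cir σ, ∀ v₃ ∈ cir σ,
      a (l 1) * v₁ + a (l 2) * v₂ + a (l 3) * v₃ = -(R + a (l 0) * x₀) →
      (∀ m, mk v₁ v₂ v₃ m ∈ cir σ) ∧ ∏ m, mk v₁ v₂ v₃ m = 1 ∧ ∑ m, a m * mk v₁ v₂ v₃ m = 0 := by
    intro v₁ h₁ v₂ h₂ v₃ h₃ hv
    refine ⟨fun m => ?_, ?_, ?_⟩
    · simp only [mk]; split_ifs
      exacts [hx₀, h₁, h₂, h₃, inv_mem_cir (mul_mem_cir (mul_mem_cir (mul_mem_cir hx₀ h₁) h₂) h₃),
        one_mem_cir]
    · rw [← Finset.prod_subset (subset_univ ({l 0, l 1, l 2, l 3, l₀} : Finset α)) fun m _ hm => by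
        simp only [mem_insert, mem_singleton, not_or] at hm
        simp [mk, hm]]
      rw [prod_insert (by simp [n01, n02, n03, hl0]), prod_insert (by simp [n12, n13, hl0]),
        prod_insert (by simp [n23, hl0]), prod_pair (hl0 3)]
      have := ne_zero_of_mem_cir hx₀
      have := ne_zero_of_mem_cir h₁
      have := ne_zero_of_mem_cir h₂
      have := ne_zero_of_mem_cir h₃
      simp [mk, n01.symm, n02.symm, n03.symm, n12.symm, n13.symm, n23.symm, fun i => (hl0 i).symm]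
      field_simp
    · have h : ∀ m, a m * mk v₁ v₂ v₃ m = a m + (if m = l 0 then a (l 0) * (x₀ - 1) else 0) +
          (if m = l 1 then a (l 1) * (v₁ - 1) else 0) + (if m = l 2 then a (l 2) * (v₂ - 1) else 0) +
          (if m = l 3 then a (l 3) * (v₃ - 1) else 0) := by
        intro m
        by_cases c0 : m = l 0
        · subst c0; simp [mk, n01, n02, n03]; ring
        by_cases c1 : m = l 1
        · subst c1; simp [mk, c0, n12, n13]; ring
        by_cases c2 : m = l 2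
        · subst c2; simp [mk, c0, c1, n23]; ring
        by_cases c3 : m = l 3
        · subst c3; simp [mk, c0, c1, c2]; ring
        by_cases c4 : m = l₀
        · subst c4; simp [mk, c0, c1, c2, c3, h0]
        simp [mk, c0, c1, c2, c3, c4]
      rw [Finset.sum_congr rfl fun m _ => h m]
      simp only [sum_add_distrib, sum_ite_eq', mem_univ, if_true]
      linear_combination hv + hR
  obtain ⟨h1, h3, h5⟩ := key x hx y hy z hz he
  obtain ⟨h2, h4, h6⟩ := key x' hx' y' hy' z' hz' he'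
  refine ⟨_, _, h1, h2, h3, h4, h5, h6, fun h => hne ?_, ⟨1, fun m hm => ?_⟩,
    {l 1, l 2, l 3, l₀}, card_le_four, fun m hm => ?_⟩
  · simpa [mk, n03.symm, n13.symm, n23.symm] using congrFun h (l 3)
  · have hml : ∀ i, m ≠ l i := fun i e' => (hl i).1 (e' ▸ hm)
    simp [mk, hml, show m ≠ l₀ from fun e' => hl₀ (e' ▸ hm)]
  · simp only [mem_insert, mem_singleton, not_or] at hm
    simp [mk, hm]

/-- For even `q`, the same avoiding two coordinates. -/
lemma exists_pair_even (hσ : IsConj σ q) (hq : Even q) {a : α → F} (P : Finset α)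
    (hn : 8 ≤ (Pᶜ.filter fun l => a l ≠ 0).card ∨
      7 ≤ (Pᶜ.filter fun l => a l ≠ 0).card ∧ 0 < P.card ∧ P.card ≤ 2) :
    ∃ d d' : α → F, (∀ l, d l ∈ cir σ) ∧ (∀ l, d' l ∈ cir σ) ∧ ∏ l, d l = 1 ∧ ∏ l, d' l = 1 ∧
      ∑ l, a l * d l = 0 ∧ ∑ l, a l * d' l = 0 ∧ d ≠ d' ∧ (∃ u, ∀ l ∈ P, d l = u ∧ d' l = u) ∧
      ∃ C : Finset α, C.card ≤ 4 ∧ ∀ l, l ∉ C → d l = d' l := by
  by_cases hz : ∑ l ∈ P, a l = 0 ∧ ¬ 8 ≤ (Pᶜ.filter fun l => a l ≠ 0).card
  · obtain ⟨hn7, hP0, hP2⟩ := hn.resolve_left hz.2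
    exact exists_pair_even_scaled hσ hq hn7 hP0 hP2 hz.1
  obtain ⟨C, hC, hC4⟩ := exists_subset_card_eq (le_trans (show 4 ≤ 7 by norm_num)
    (show 7 ≤ (Pᶜ.filter fun l => a l ≠ 0).card by rcases hn with h | h <;> omega))
  have hCP : ∀ l ∈ C, l ∉ P ∧ a l ≠ 0 := fun l hl => by simpa using hC hl
  have h1 : (Pᶜ.filter fun l => a l ≠ 0) \ C ⊆ (Pᶜ \ C).filter fun l => a l ≠ 0 := fun l hl => by
    simp only [mem_sdiff, mem_filter] at hl ⊢; tauto
  have hBc := card_le_card h1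
  rw [card_sdiff_of_subset hC] at hBc
  obtain ⟨T, hT, hTc⟩ : ∃ T ⊆ (Pᶜ \ C).filter fun l => a l ≠ 0,
      (∑ l ∈ Cᶜ \ T, a l ≠ 0 ∧ T.card = 3) ∨ T.card = 4 := by
    by_cases h8 : 8 ≤ (Pᶜ.filter fun l => a l ≠ 0).card
    · obtain ⟨T, hT, hT4⟩ := exists_subset_card_eq (show 4 ≤ ((Pᶜ \ C).filter fun l => a l ≠ 0).card by
        omega)
      exact ⟨T, hT, Or.inr hT4⟩
    · have h7 := (hn.resolve_left h8).1
      obtain ⟨T, hT, hT3⟩ := exists_subset_card_eq (show 3 ≤ ((Pᶜ \ C).filter fun l => a l ≠ 0).card by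
        omega)
      refine ⟨T, hT, Or.inl ⟨?_, hT3⟩⟩
      have hU : (Pᶜ.filter fun l => a l ≠ 0) = C ∪ T := by
        refine (eq_of_subset_of_card_le (union_subset hC fun l hl => ?_) ?_).symm
        · have := hT hl; simp only [mem_filter, mem_sdiff, mem_compl] at this ⊢; tauto
        · rw [card_union_of_disjoint (disjoint_right.mpr fun l hl => by
            have := hT hl; simp only [mem_filter, mem_sdiff] at this; exact this.1.2), hC4, hT3]
          omega
      have e : ∑ l ∈ Cᶜ \ T, a l = ∑ l ∈ P, a l := by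
        refine (sum_subset (fun l hl => ?_) fun l hl hlP => ?_).symm
        · simp only [mem_sdiff, mem_compl]
          exact ⟨fun h => (hCP l h).1 hl, fun h => by
            have := hT h; simp only [mem_filter, mem_sdiff, mem_compl] at this; exact this.1.1 hl⟩
        · by_contra h0
          simp only [mem_sdiff, mem_compl] at hl
          have : l ∈ C ∪ T := hU ▸ mem_filter.mpr ⟨mem_compl.mpr hlP, h0⟩
          rcases mem_union.mp this with h | h
          exacts [hl.1 h, hl.2 h]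
      rw [e]
      exact fun h0 => hz ⟨h0, h8⟩
  have hT' : ∀ l ∈ T, l ∉ P ∧ l ∉ C ∧ a l ≠ 0 := fun l hl => by
    have := hT hl; simp only [mem_filter, mem_sdiff, mem_compl] at this; tauto
  obtain ⟨dC, dC', hdC, hdC', hsC, hsC', hpC, l₀, hl₀, hne⟩ :=
    exists_pair_on hC4 a (fun b hb => exists_pair_four hσ hq hb 0) fun l hl => (hCP l hl).2
  -- the rest sums to zero with `d = 1` on `P`
  obtain ⟨dB, hdB, hsB, hdB1⟩ : ∃ d : α → F, (∀ l, d l ∈ cir σ) ∧ ∑ l ∈ Cᶜ, a l * d l = 0 ∧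
      ∀ l ∈ P, d l = 1 := by
    set R := ∑ l ∈ Cᶜ \ T, a l
    let b : Option α → F := fun o => o.elim R a
    have hS : 4 ≤ ((insertNone T).filter fun o => b o ≠ 0).card := by
      rcases hTc with ⟨hR, hT3⟩ | hT4
      · rw [filter_true_of_mem, card_insertNone]
        · omega
        · intro o ho
          cases o with
          | none => exact hR
          | some l => exact (hT' l (by simpa using ho)).2.2
      refine le_trans (le_of_eq hT4.symm) (le_trans (le_of_eq (card_map ⟨some, Option.some_injective α⟩).symm)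
        (card_le_card fun o ho => ?_))
      obtain ⟨l, hl, rfl⟩ := mem_map.mp ho
      simp [b, hl, (hT' l hl).2.2]
    obtain ⟨d, hd, hs, -⟩ := exists_zero_sum hσ hS
    have h0 : d none ≠ 0 := ne_zero_of_mem_cir (hd none)
    refine ⟨fun l => if l ∈ T then d (some l) / d none else 1, fun l => ?_, ?_, fun l hl => ?_⟩
    · dsimp only; split_ifs
      exacts [div_mem_cir (hd _) (hd _), one_mem_cir]
    · have hTC : T ⊆ Cᶜ := fun l hl => mem_compl.mpr (hT' l hl).2.1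
      have e1 : ∀ l ∈ Cᶜ \ T, a l * (if l ∈ T then d (some l) / d none else 1) = a l :=
        fun l hl => by rw [if_neg (mem_sdiff.mp hl).2, mul_one]
      have e2 : ∀ l ∈ T, a l * (if l ∈ T then d (some l) / d none else 1) =
          a l * d (some l) / d none := fun l hl => by rw [if_pos hl, mul_div_assoc]
      rw [← sum_sdiff hTC, Finset.sum_congr rfl e1, Finset.sum_congr rfl e2, ← sum_div]
      rw [sum_insertNone] at hs
      simp only [b, Option.elim] at hs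
      field_simp
      linear_combination hs
    · exact if_neg fun h => (hT' l h).1 hl
  have hco : Nat.Coprime 4 (q + 1) := by
    obtain ⟨r, rfl⟩ := hq
    have : Nat.Coprime 2 (r + r + 1) :=
      (Nat.Prime.coprime_iff_not_dvd Nat.prime_two).mpr (by omega)
    simpa using this.pow_left 2
  have hπ := mul_mem_cir (prod_mem_cir C dC fun i _ => hdC i) (prod_mem_cir Cᶜ dB fun i _ => hdB i)
  obtain ⟨c, hc, c₂, hc₂, hcc⟩ := exists_pow_eq hco (inv_mem_cir hπ)
  rw [pow_card_cir hσ hc₂, mul_one] at hcc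
  let mk : (α → F) → α → F := fun f l => if l ∈ C then c * f l else dB l
  have onC : ∀ (f : α → F), ∀ l ∈ C, mk f l = c * f l := fun f l hl => by simp [mk, hl]
  have onB : ∀ (f : α → F), ∀ l ∈ Cᶜ, mk f l = dB l := fun f l hl => by
    simp [mk, mem_compl.mp hl]
  have hmem : ∀ f : α → F, (∀ l, f l ∈ cir σ) → ∀ l, mk f l ∈ cir σ := fun f hf l => by
    simp only [mk]; split_ifs
    exacts [mul_mem_cir hc (hf l), hdB l]
  have hsum : ∀ f : α → F, ∑ l ∈ C, a l * f l = 0 → ∑ l, a l * mk f l = 0 := fun f hf => by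
    rw [← sum_add_sum_compl C, Finset.sum_congr rfl fun l hl => by rw [onC f l hl, mul_left_comm],
      Finset.sum_congr (s₁ := Cᶜ) rfl fun l hl => by rw [onB f l hl], ← mul_sum, hf, hsB]
    ring
  have hprod : ∀ f : α → F, ∏ l ∈ C, f l = ∏ l ∈ C, dC l → ∏ l, mk f l = 1 := fun f hf => by
    rw [← prod_mul_prod_compl C, Finset.prod_congr rfl (onC f), Finset.prod_congr rfl (onB f),
      prod_mul_distrib, prod_const, hC4, hf, hcc, mul_assoc]
    exact inv_mul_cancel₀ (ne_zero_of_mem_cir hπ)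
  refine ⟨mk dC, mk dC', hmem _ hdC, hmem _ hdC', hprod _ rfl, hprod _ hpC.symm, hsum _ hsC,
    hsum _ hsC', fun h => hne ?_, ⟨1, fun l hl => ?_⟩, C, by omega, fun l hl => by simp [mk, hl]⟩
  · have := congrFun h l₀
    rw [onC _ _ hl₀, onC _ _ hl₀] at this
    exact mul_left_cancel₀ (ne_zero_of_mem_cir hc) this
  · have hlC : l ∉ C := fun h => (hCP l h).1 hl
    simp [mk, hlC, hdB1 l hl]

end CfsgLib.UMon
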