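import Cfsg.Agent.Lib.Geometric.UnitaryMonomial.Basic
import Cfsg.Agent.Lib.Geometric.UnitaryMonomial.Sums

/-!
An overgroup of the monomial group in the special unitary group has a non-monomial element fixing
a coordinate line.
-/

set_option autoImplicit false

namespace CfsgLib.UMon

open CfsgLib.Geometric Finset Matrix

variable {ι : Type} [Fintype ι] [DecidableEq ι] {F : Type*} [Field F] [Fintype F] [DecidableEq F]
variable {σ : F ≃+* F} {q : ℕ}

local notation "e[" j "]" => (Pi.single j (1 : _) : ι → _)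

/-- Some non-monomial element of `X` fixes a coordinate line. -/
def FixLine (X : Subgroup (GL ι F)) : Prop :=
  ∃ z ∈ X, ¬ IsMon z ∧ ∃ o, ∃ γ : F, ap z e[o] = γ • e[o]

/-- No column of a non-monomial element of `X` has two zeros. -/
def NoTwoZeros (X : Subgroup (GL ι F)) : Prop :=
  ∀ g ∈ X, ¬ IsMon g → ∀ j a b, a ≠ b → ap g e[j] a = 0 → ap g e[j] b = 0 → False

omit [Fintype F] [DecidableEq F] in
lemma card_le_of_supp {g : GL ι F} {Z T : Finset ι}
    (h : ∀ c ∈ Z, ∀ i, i ∉ T → ap g e[c] i = 0) : Z.card ≤ T.card := by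
  let ext : (Z → F) →ₗ[F] (ι → F) :=
    LinearMap.pi fun i => if h : i ∈ Z then LinearMap.proj ⟨i, h⟩ else 0
  have hext : ∀ δ i, ext δ i = if h : i ∈ Z then δ ⟨i, h⟩ else 0 := fun δ i => by
    simp only [ext, LinearMap.pi_apply]; split_ifs <;> rfl
  have he : ∀ δ, ext δ = ∑ c : Z, δ c • e[(c : ι)] := fun δ => by
    funext i
    rw [hext, Finset.sum_apply]
    split_ifs with hi
    · rw [Finset.sum_eq_single (⟨i, hi⟩ : Z)]
      · simp
      · intro c _ hc
        have : i ≠ (c : ι) := fun e => hc (Subtype.ext e.symm)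
        simp [this]
      · simp
    · refine (Finset.sum_eq_zero fun c _ => ?_).symm
      have : i ≠ (c : ι) := fun e => hi (e ▸ c.2)
      simp [this]
  let Φ : (Z → F) →ₗ[F] (T → F) :=
    (LinearMap.funLeft F F (Subtype.val : T → ι)).comp ((apEquiv g).toLinearMap.comp ext)
  have hinj : Function.Injective Φ := by
    rw [injective_iff_map_eq_zero]
    intro δ hδ
    have h0 : ap g (ext δ) = 0 := by
      funext i
      by_cases hi : i ∈ T
      · exact congrFun hδ ⟨i, hi⟩
      · rw [he, ← apEquiv_apply, map_sum, Finset.sum_apply]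
        exact Finset.sum_eq_zero fun c _ => by simp [h c c.2 i hi]
    funext c
    have := congrFun (ap_injective g (h0.trans (ap_zero g).symm)) c
    rwa [hext, dif_pos c.2] at this
  simpa [Module.finrank_fintype_fun_eq_card] using LinearMap.finrank_le_finrank_of_injective hinj

section Steps

variable {X : Subgroup (GL ι F)} (hσ : IsConj σ q) (hn : 9 ≤ Fintype.card ι)
  (hX : X ≤ GUs σ) (hM : MonIn σ X)
include hσ hn hX hM

omit hσ hn hX in
lemma fixLine_of_col {z : GL ι F} (hz : z ∈ X) (hzn : ¬ IsMon z) {j : ι}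
    (h : wt (ap z e[j]) ≤ 1) : FixLine X := by
  obtain ⟨p, hp⟩ : ∃ p, ap z e[j] p ≠ 0 :=
    Function.ne_iff.mp (ap_ne_zero z (x := e[j]) (by simp))
  have hcol : ∀ i, i ≠ p → ap z e[j] i = 0 := fun i hi => by_contra fun h0 =>
    hi (card_le_one.mp h i (by simp [h0]) p (by simp [hp]))
  by_cases hpj : p = j
  · refine ⟨z, hz, hzn, j, ap z e[j] j, funext fun i => ?_⟩
    by_cases hi : i = j
    · subst hi; simp
    · simp [hi, hcol i (hpj ▸ hi)]
  set d : ι → F := Function.update 1 j (-1) with hd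
  have hdc : ∀ i, d i ∈ cir σ := fun i => by
    by_cases hi : i = j
    · subst hi; simpa [hd] using neg_mem_cir (σ := σ) one_mem_cir
    · simp [hd, hi, one_mem_cir]
  have hw : mo (Equiv.swap j p) d ∈ X := mo_mem hM hdc (by
    rw [Equiv.Perm.sign_swap (Ne.symm hpj), hd, Finset.prod_update_of_mem (mem_univ j)]
    simp)
  refine ⟨_, mul_mem hw hz, not_isMon_mul_left (isMon_mo _ _) hzn, j,
    d j * ap z e[j] p, funext fun i => ?_⟩
  rw [ap_mul, ap_mo fun i => ne_zero_of_mem_cir (hdc i)]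
  by_cases hi : i = j
  · subst hi; simp
  · rw [Equiv.symm_swap, hcol _ fun h' => hi (by
      rw [← Equiv.swap_apply_self j p i, h', Equiv.swap_apply_right])]
    simp [hi]

omit hn hX in
/-- Without fixed lines, the rows belonging to two zeros of a column share three coordinates. -/
lemma pair_support (hN : ¬ FixLine X) {g : GL ι F} (hg : g ∈ X) {j a b : ι} (hab : a ≠ b)
    (ha : ap g e[j] a = 0) (hb : ap g e[j] b = 0) :
    ∃ S : Finset ι, S.card ≤ 3 ∧ ∀ i, i ∉ S → ap g⁻¹ e[a] i = 0 ∧ ap g⁻¹ e[b] i = 0 := by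
  obtain ⟨c, hc, hc2⟩ := exists_sq_ne_one hσ
  have hc0 := ne_zero_of_mem_cir hc
  have hc1 : c ≠ 1 := fun h => hc2 (by rw [h, one_pow])
  have hcm : c ≠ -1 := fun h => hc2 (by rw [h, neg_one_sq])
  have hci : c⁻¹ ≠ -1 := fun h => hcm (by rw [← inv_inv c, h, inv_neg, inv_one])
  have hcc : c - c⁻¹ ≠ 0 := fun h => hc2 (by
    field_simp at h; linear_combination h)
  set d : ι → F := Function.update (Function.update 1 a c) b c⁻¹ with hd
  have hdc : ∀ i, d i ∈ cir σ := fun i => by
    by_cases h1 : i = b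
    · subst h1; simpa [hd] using inv_mem_cir hc
    by_cases h2 : i = a
    · subst h2; simpa [hd, h1] using hc
    · simp [hd, h1, h2, one_mem_cir]
  have hd0 := fun i => ne_zero_of_mem_cir (hdc i)
  have hda : d a = c := by simp [hd, hab]
  have hdb : d b = c⁻¹ := by simp [hd]
  have hdo : ∀ i, i ≠ a → i ≠ b → d i = 1 := fun i h1 h2 => by simp [hd, h1, h2]
  set z := g⁻¹ * dia d * g with hzdef
  have hz : z ∈ X := by
    refine mul_mem (mul_mem (inv_mem hg) (dia_mem hM hdc ?_)) hg
    rw [hd, Finset.prod_update_of_mem (mem_univ b),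
      Finset.prod_update_of_mem (show a ∈ univ \ {b} by simp [hab])]
    simp [hc0]
  have hdiag : ∀ m (s : F), ap (dia d) (Pi.single m s) = Pi.single m (d m * s) := fun m s => by
    funext i
    rw [ap_dia hd0]
    by_cases h : i = m
    · subst h; simp
    · simp [h]
  set A := ap g⁻¹ e[a] with hA
  set B := ap g⁻¹ e[b] with hB
  have hzA : ap z A = c • A := by
    rw [hA, hzdef, ap_mul, ap_mul, ap_ap_inv, hdiag, mul_one, hda,
      ← ap_smul, ← Pi.single_smul', smul_eq_mul, mul_one]
  have hzB : ap z B = c⁻¹ • B := by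
    rw [hB, hzdef, ap_mul, ap_mul, ap_ap_inv, hdiag, mul_one, hdb,
      ← ap_smul, ← Pi.single_smul', smul_eq_mul, mul_one]
  have him : ∀ x, ap z x - x =
      ((c - 1) * ap g x a) • A + ((c⁻¹ - 1) * ap g x b) • B := by
    intro x
    have : ap (dia d) (ap g x) - ap g x =
        ((c - 1) * ap g x a) • e[a] + ((c⁻¹ - 1) * ap g x b) • e[b] := by
      funext i
      rw [Pi.sub_apply, ap_dia hd0]
      by_cases h1 : i = a
      · subst h1; simp [hda, hab]; ring
      by_cases h2 : i = b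
      · subst h2; simp [hdb, h1]; ring
      · simp [hdo i h1 h2, h1, h2]
    conv_lhs => rw [hzdef, ap_mul, ap_mul]; arg 2; rw [← ap_inv_ap g x]
    rw [← ap_sub, this, ap_add, ap_smul, ap_smul]
  have hzj : ap z e[j] = (1 : F) • e[j] := by
    have := him e[j]
    rw [ha, hb, mul_zero, mul_zero, zero_smul, zero_smul, add_zero, sub_eq_zero] at this
    rw [this, one_smul]
  obtain ⟨π, δ, hπδ⟩ : IsMon z := by_contra fun h => hN ⟨z, hz, h, j, 1, hzj⟩
  by_cases hperm : ∃ m, π m ≠ m
  · obtain ⟨m, hm⟩ := hperm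
    refine ⟨{m, π m, π (π m)}, card_le_three, fun i hi => ?_⟩
    simp only [mem_insert, mem_singleton, not_or] at hi
    set C := (δ (π m) : F) with hC
    have hC0 : C ≠ 0 := (δ (π m)).ne_zero
    set α := (c - 1) * ap g e[m] a with hα
    set β := (c⁻¹ - 1) * ap g e[m] b with hβ
    have hx : Pi.single (π m) C - e[m] = α • A + β • B := by
      rw [← him, hπδ, ap_mon_single, mul_one]
    have hy : Pi.single (π (π m)) ((δ (π (π m)) : F) * C) - Pi.single (π m) C =
        (α * c) • A + (β * c⁻¹) • B := by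
      rw [show (α * c) • A = ap z (α • A) by rw [ap_smul, hzA, smul_smul],
        show (β * c⁻¹) • B = ap z (β • B) by rw [ap_smul, hzB, smul_smul], ← ap_add, ← hx, ap_sub,
        hπδ, ap_mon_single, ap_mon_single, mul_one]
    -- `z x` is no multiple of `x`
    have hnd : ∀ lam : F, lam ≠ 0 → lam ≠ -1 →
        Pi.single (π (π m)) ((δ (π (π m)) : F) * C) - Pi.single (π m) C ≠
          lam • (Pi.single (π m) C - e[m] : ι → F) := by
      intro lam h0 h1 he
      by_cases h22 : π (π m) = m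
      · have h2 := congrFun he (π m)
        simp [h22, hm] at h2
        exact h1 (mul_right_cancel₀ hC0 (by linear_combination -h2))
      · have h2 := congrFun he m
        simp [Ne.symm h22, Ne.symm hm, h0] at h2
    have hα0 : α ≠ 0 := fun h => hnd c⁻¹ (inv_ne_zero hc0) hci (by
      rw [hy, hx, h]; module)
    have hβ0 : β ≠ 0 := fun h => hnd c hc0 hcm (by
      rw [hy, hx, h]; module)
    have h1 := congrFun hx i
    have h2 := congrFun hy i
    simp [hi.1, hi.2.1, hi.2.2] at h1 h2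
    constructor
    · exact (mul_eq_zero.mp (show α * (c - c⁻¹) * A i = 0 by
        linear_combination c⁻¹ * h1 - h2)).resolve_left (mul_ne_zero hα0 hcc)
    · exact (mul_eq_zero.mp (show β * (c - c⁻¹) * B i = 0 by
        linear_combination h2 - c * h1)).resolve_left (mul_ne_zero hβ0 hcc)
  · push Not at hperm
    set S := univ.filter fun i => (δ i : F) ≠ 1 with hS
    refine ⟨S, le_trans ?_ (show 2 ≤ 3 by norm_num), fun i hi => ?_⟩
    · let P := Submodule.span F ({A, B} : Set (ι → F))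
      have hP : ∀ i ∈ S, (e[i] : ι → F) ∈ P := by
        intro i hi
        have hi' : (δ i : F) ≠ 1 := by simpa [hS] using hi
        have hmem : ap z e[i] - e[i] ∈ P := by
          rw [him]; exact Submodule.mem_span_pair.mpr ⟨_, _, rfl⟩
        have := P.smul_mem ((δ i : F) - 1)⁻¹ hmem
        rwa [hπδ, ap_mon_single, mul_one, hperm i, ← Pi.single_sub, ← Pi.single_smul',
          smul_eq_mul, inv_mul_cancel₀ (sub_ne_zero.mpr hi')] at this
      have hli : LinearIndependent F fun i : S => (⟨e[(i : ι)], hP i i.2⟩ : P) := by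
        apply LinearIndependent.of_comp P.subtype
        have := (Pi.basisFun F ι).linearIndependent.comp (Subtype.val : S → ι) Subtype.val_injective
        simpa [Function.comp_def] using this
      have h1 := hli.fintype_card_le_finrank
      have h2 : Module.finrank F P ≤ 2 :=
        (finrank_span_le_card _).trans (by
          simp only [Set.toFinset_insert, Set.toFinset_singleton]; exact card_le_two)
      rw [Fintype.card_coe] at h1
      omega
    · have hi' : (δ i : F) = 1 := by simpa [hS] using hi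
      have hdiag' : ∀ x : ι → F, ap z x i = x i := fun x => by
        rw [hπδ, ap_mon, show π.symm i = i by rw [Equiv.symm_apply_eq, hperm i], hi', one_mul]
      constructor
      · have := congrFun hzA i
        rw [hdiag', Pi.smul_apply, smul_eq_mul] at this
        by_contra h0
        exact hc1 (mul_right_cancel₀ h0 (by rw [one_mul]; exact this.symm))
      · have := congrFun hzB i
        rw [hdiag', Pi.smul_apply, smul_eq_mul] at this
        by_contra h0
        exact hc1 (inv_eq_one.mp (mul_right_cancel₀ h0 (by rw [one_mul]; exact this.symm)))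

lemma noTwoZeros (hN : ¬ FixLine X) : NoTwoZeros X := by
  intro g hg hgn j a b hab ha hb
  obtain ⟨S, hS, hS0⟩ := pair_support hσ hM hN hg hab ha hb
  set f : ι → Finset ι := fun c => univ.filter fun i => ap g e[c] i ≠ 0 with hf
  have hf2 : ∀ c, 2 ≤ (f c).card := fun c => by
    by_contra h
    exact hN (fixLine_of_col hM hg hgn (j := c) (by change (f c).card ≤ 1; omega))
  have hpair : ∀ c ∈ Sᶜ, ∀ d ∈ Sᶜ, c ≠ d → (f c ∪ f d).card ≤ 3 := by
    intro c hc d hd hcd
    obtain ⟨T, hT, hT0⟩ := pair_support hσ hM hN (inv_mem hg) hcd (hS0 c (mem_compl.mp hc)).1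
      (hS0 d (mem_compl.mp hd)).1
    rw [inv_inv] at hT0
    refine le_trans (card_le_card fun i hi => by_contra fun hiT => ?_) hT
    simp only [hf, mem_union, mem_filter, mem_univ, true_and] at hi
    rcases hi with h | h
    exacts [h (hT0 i hiT).1, h (hT0 i hiT).2]
  have horth : ∀ c d, c ≠ d → (f c ∩ f d).card ≠ 1 := by
    intro c d hcd h1
    obtain ⟨t, ht⟩ := card_eq_one.mp h1
    have h := hb_ap (hX hg) (e[c] : ι → F) (e[d] : ι → F)
    rw [CfsgLib.UMon.hb, Finset.sum_eq_single t ?_ (by simp)] at h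
    · rw [hb_single_left, Pi.single_eq_of_ne hcd, map_zero, mul_zero] at h
      have htm : t ∈ f c ∩ f d := by rw [ht]; simp
      simp only [hf, mem_inter, mem_filter, mem_univ, true_and] at htm
      exact mul_ne_zero htm.1 ((map_ne_zero σ).mpr htm.2) h
    · intro i _ hi
      by_contra h0
      obtain ⟨h0', h0''⟩ := mul_ne_zero_iff.mp h0
      have : i ∈ f c ∩ f d := by simp [hf, h0', (map_ne_zero σ).mp h0'']
      rw [ht, mem_singleton] at this
      exact hi this
  obtain ⟨Z, hZ, hZ4⟩ := exists_subset_card_eq (s := Sᶜ) (n := 4) (by rw [card_compl]; omega)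
  obtain ⟨T, hT, hTZ⟩ : ∃ T : Finset ι, T.card ≤ 3 ∧ ∀ c ∈ Z, f c ⊆ T := by
    by_cases h3 : ∃ c₀ ∈ Z, 3 ≤ (f c₀).card
    · obtain ⟨c₀, hc₀, h3⟩ := h3
      obtain ⟨c₁, hc₁, hne⟩ := exists_mem_ne (show 1 < Z.card by omega) c₀
      refine ⟨f c₀, le_trans (card_le_card subset_union_left)
        (hpair c₀ (hZ hc₀) c₁ (hZ hc₁) hne.symm), fun c hc => ?_⟩
      by_cases hcc : c = c₀
      · rw [hcc]
      have h := hpair c₀ (hZ hc₀) c (hZ hc) (Ne.symm hcc)
      have he : f c₀ = f c₀ ∪ f c := eq_of_subset_of_card_le subset_union_left (by omega)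
      rw [he]; exact subset_union_right
    · push Not at h3
      obtain ⟨c₀, hc₀⟩ := card_pos.mp (show 0 < Z.card by omega)
      refine ⟨f c₀, (h3 c₀ hc₀).le, fun c hc => ?_⟩
      by_cases hcc : c = c₀
      · rw [hcc]
      have h := hpair c₀ (hZ hc₀) c (hZ hc) (Ne.symm hcc)
      have h' := card_union_add_card_inter (f c₀) (f c)
      have := h3 c₀ hc₀
      have := h3 c hc
      have := hf2 c₀
      have := hf2 c
      have := horth c₀ c (Ne.symm hcc)
      have he : f c₀ ∩ f c = f c := eq_of_subset_of_card_le inter_subset_right (by omega)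
      rw [← he]; exact inter_subset_left
  have := card_le_of_supp (g := g) (Z := Z) (T := T) fun c hc i hi =>
    by_contra fun h0 => hi (hTZ c hc (by simp [hf, h0]))
  omega

variable (hZ : NoTwoZeros X)
include hZ

omit hσ hX hM in
/-- A small diagonal element does not become monomial under conjugation. -/
lemma not_isMon_small {g : GL ι F} (hg : g ∈ X) (hgn : ¬ IsMon g) {d : ι → F}
    (hd : ∀ i, d i ∈ cir σ) (hp : ∏ i, d i = 1) (hd1 : d ≠ 1) {C : Finset ι}
    (hC : 2 * C.card < Fintype.card ι) (hdC : ∀ i, i ∉ C → d i = 1) : ¬ IsMon (g⁻¹ * dia d * g) := by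
  rintro ⟨π, c, hπc⟩
  have hd0 := fun i => ne_zero_of_mem_cir (hd i)
  have hfix : ∀ x : ι → F, (∀ l ∈ C, x l = 0) → ap (dia d) x = x := fun x hx => by
    funext i
    rw [ap_dia hd0]
    by_cases hi : i ∈ C
    · rw [hx i hi, mul_zero]
    · rw [hdC i hi, one_mul]
  have h1 := card_fixed_mon (π := π) (c := c) (r := C.card)
    (by rw [← hπc]; exact card_le_fixSpace_conj hfix)
    (s := univ.filter fun m => ap (mon π c) e[m] = (e[m] : ι → F)) (fun m hm => by simp [hm])
  obtain ⟨m, hm⟩ := card_pos.mp (show 0 <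
    (univ.filter fun m => ap (mon π c) e[m] = (e[m] : ι → F)).card by omega)
  simp only [mem_filter, mem_univ, true_and] at hm
  have hgm : ap (dia d) (ap g e[m]) = ap g e[m] := by
    conv_rhs => rw [← hm, ← hπc, ap_mul, ap_mul, ap_ap_inv]
  have hzero : ∀ i, d i ≠ 1 → ap g e[m] i = 0 := fun i hi => by
    have := congrFun hgm i
    rw [ap_dia hd0] at this
    by_contra h0
    exact hi (mul_right_cancel₀ h0 (this.trans (one_mul _).symm))
  obtain ⟨a, ha⟩ := Function.ne_iff.mp hd1
  obtain ⟨b, hba, hb⟩ : ∃ b, b ≠ a ∧ d b ≠ 1 := by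
    by_contra h
    push Not at h
    rw [Finset.prod_eq_single a (fun b _ hb => h b hb) (by simp)] at hp
    exact ha hp
  exact hZ g hg hgn m a b (Ne.symm hba) (hzero a ha) (hzero b hb)

omit hσ hX in
/-- One of two diagonal elements differing on few coordinates does not become monomial. -/
lemma exists_not_isMon {g : GL ι F} (hg : g ∈ X) (hgn : ¬ IsMon g) {d d' : ι → F}
    (hd : ∀ i, d i ∈ cir σ) (hd' : ∀ i, d' i ∈ cir σ) (hp : ∏ i, d i = 1) (hp' : ∏ i, d' i = 1)
    (hne : d ≠ d') {C : Finset ι} (hC : 2 * C.card < Fintype.card ι) (hdC : ∀ i, i ∉ C → d i = d' i) :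
    ∃ δ, (δ = d ∨ δ = d') ∧ g⁻¹ * dia δ * g ∈ X ∧ ¬ IsMon (g⁻¹ * dia δ * g) := by
  by_cases h : IsMon (g⁻¹ * dia d' * g)
  swap
  · exact ⟨d', Or.inr rfl, mul_mem (mul_mem (inv_mem hg) (dia_mem hM hd' hp')) hg, h⟩
  refine ⟨d, Or.inl rfl, mul_mem (mul_mem (inv_mem hg) (dia_mem hM hd hp)) hg, fun h' => ?_⟩
  refine not_isMon_small hn hZ hg hgn (σ := σ) (d := fun i => d i / d' i)
    (fun i => div_mem_cir (hd i) (hd' i)) (by rw [prod_div_distrib, hp, hp', div_one]) ?_ hC
    (fun i hi => by rw [hdC i hi, div_self (ne_zero_of_mem_cir (hd' i))]) ?_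
  · intro e
    exact hne (funext fun i => by
      have := congrFun e i
      simp [div_eq_one_iff_eq (ne_zero_of_mem_cir (hd' i))] at this
      exact this)
  · have := h.inv.mul h'
    convert this using 1
    have e : dia (fun i => d i / d' i) = (dia d')⁻¹ * dia d := by
      rw [eq_inv_mul_iff_mul_eq]
      refine gl_ext fun x => funext fun i => ?_
      have hd0 := fun i => ne_zero_of_mem_cir (hd i)
      have hd0' := fun i => ne_zero_of_mem_cir (hd' i)
      rw [ap_mul, ap_dia hd0', ap_dia fun i => div_ne_zero (hd0 i) (hd0' i), ap_dia hd0]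
      field_simp [hd0' i]
    rw [e]; group

/-- Some non-monomial element has a zero entry. -/
lemma exists_zero {g : GL ι F} (hg : g ∈ X) (hgn : ¬ IsMon g) :
    ∃ g' ∈ X, ¬ IsMon g' ∧ ∃ j a, ap g' e[j] a = 0 := by
  by_cases h : ∃ j a, ap g e[j] a = 0
  · exact ⟨g, hg, hgn, h⟩
  push Not at h
  obtain ⟨j, k, hjk⟩ : ∃ j k : ι, j ≠ k := Fintype.exists_pair_of_one_lt_card (by omega)
  obtain ⟨d, d', hd, hd', hp, hp', hs, hs', hne, C, hC, hdC⟩ :=
    exists_pair hσ hn (a := fun l => ap g e[j] l * σ (ap g e[k] l))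
      fun l => mul_ne_zero (h j l) ((map_ne_zero σ).mpr (h k l))
  obtain ⟨δ, hδ, hzX, hzn⟩ := exists_not_isMon hn hM hZ hg hgn hd hd' hp hp' hne hC hdC
  refine ⟨_, hzX, hzn, j, k, ?_⟩
  have hδc : ∀ i, δ i ∈ cir σ := by rcases hδ with rfl | rfl <;> assumption
  have hsum : ∑ l, ap g e[j] l * σ (ap g e[k] l) * δ l = 0 := by
    rcases hδ with rfl | rfl <;> assumption
  have e1 := hb_single_right (σ := σ) (ap (g⁻¹ * dia δ * g) e[j]) k 1
  rw [map_one, mul_one, ap_mul, ap_mul, hb_ap_left (inv_mem (hX hg)), inv_inv] at e1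
  rw [ap_mul, ap_mul, ← e1, hb, ← hsum]
  refine Finset.sum_congr rfl fun l _ => ?_
  rw [ap_dia fun i => ne_zero_of_mem_cir (hδc i)]
  ring

omit hn hM hσ [Fintype F] [DecidableEq F] in
lemma inv_col {g : GL ι F} (hg : g ∈ X) (hgn : ¬ IsMon g) {j a : ι} (h : ap g e[j] a = 0) :
    ap g⁻¹ e[a] j = 0 ∧ ∀ i, i ≠ j → ap g⁻¹ e[a] i ≠ 0 := by
  have h1 : ap g⁻¹ e[a] j = 0 := by rw [ap_inv_entry (hX hg), h, map_zero]
  exact ⟨h1, fun i hi h2 => hZ _ (inv_mem hg) (not_isMon_inv hgn) a i j hi h2 h1⟩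

omit hM hZ hn hX hσ in
/-- The swap of two coordinates with coefficients fixing `u`. -/
lemma swap_data {u : ι → F} {p p' : ι} (hpp : p ≠ p') (hp : u p ≠ 0) (hp' : u p' ≠ 0)
    (he : u p * σ (u p) = u p' * σ (u p')) {e : ι → F} (hec : ∀ i, e i ∈ cir σ)
    (heu : ∀ i, i ≠ p → i ≠ p' → e i * u i = u i) :
    ∃ d : ι → F, (∀ i, d i ∈ cir σ) ∧ d p = u p / u p' ∧ d p' = u p' / u p ∧
      (∀ i, i ≠ p → i ≠ p' → d i = e i) ∧
      ap (mo (Equiv.swap p p') d) u = u ∧
      (e p = 1 → e p' = 1 → ∏ i, d i = ∏ i, e i) := by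
  set d : ι → F := Function.update (Function.update e p (u p / u p')) p' (u p' / u p) with hd
  have hσp : σ (u p) ≠ 0 := (map_ne_zero σ).mpr hp
  have hσp' : σ (u p') ≠ 0 := (map_ne_zero σ).mpr hp'
  have hdc : ∀ i, d i ∈ cir σ := fun i => by
    by_cases h1 : i = p'
    · subst h1
      simp only [hd, Function.update_self, mem_cir, map_div₀, div_mul_div_comm, he]
      exact div_self (mul_ne_zero hp' hσp')
    by_cases h2 : i = p
    · subst h2
      simp only [hd, ne_eq, h1, not_false_eq_true, Function.update_of_ne, Function.update_self,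
        mem_cir, map_div₀, div_mul_div_comm, he]
      exact div_self (mul_ne_zero hp' hσp')
    · simp [hd, h1, h2, hec]
  refine ⟨d, hdc, by simp [hd, hpp], by simp [hd], fun i h1 h2 => by simp [hd, h1, h2],
    funext fun i => ?_, fun e1 e2 => ?_⟩
  · rw [ap_mo fun i => ne_zero_of_mem_cir (hdc i), Equiv.symm_swap]
    by_cases h1 : i = p'
    · subst h1; simp [hd]; field_simp
    by_cases h2 : i = p
    · subst h2; simp [hd, hpp]; field_simp
    · rw [Equiv.swap_apply_of_ne_of_ne h2 h1]; simp [hd, h1, h2, heu i h2 h1]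
  · rw [hd, Finset.prod_update_of_mem (mem_univ p'),
      Finset.prod_update_of_mem (show p ∈ univ \ {p'} by simp [hpp]), ← mul_assoc,
      div_mul_div_cancel₀ hp, div_self hp', one_mul]
    refine Finset.prod_subset (subset_univ _) fun i _ hi => ?_
    simp only [mem_sdiff, mem_univ, true_and, mem_singleton, not_and_or, not_not] at hi
    rcases hi with rfl | rfl
    exacts [e2, e1]

lemma false_of_odd (hN : ¬ FixLine X) (hq : ¬ Even q) {g : GL ι F} (hg : g ∈ X) (hgn : ¬ IsMon g)
    {j a : ι} (hja : ap g e[j] a = 0) {p p' : ι} (hpj : p ≠ j) (hpj' : p' ≠ j) (hpp : p ≠ p')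
    (he : ap g⁻¹ e[a] p * σ (ap g⁻¹ e[a] p) = ap g⁻¹ e[a] p' * σ (ap g⁻¹ e[a] p')) :
    False := by
  obtain ⟨hu0, hu⟩ := inv_col hX hZ hg hgn hja
  set u := ap g⁻¹ e[a] with hudef
  set e : ι → F := Function.update 1 j (-1) with hedef
  have hec : ∀ i, e i ∈ cir σ := fun i => by
    by_cases hi : i = j
    · subst hi; simpa [hedef] using neg_mem_cir (σ := σ) one_mem_cir
    · simp [hedef, hi, one_mem_cir]
  obtain ⟨d, hdc, -, -, hdo, hwu, hprod⟩ := swap_data hpp (hu p hpj) (hu p' hpj') he hec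
    fun i _ _ => by
      by_cases hi : i = j
      · subst hi; rw [hu0, mul_zero]
      · simp [hedef, hi]
  set w := mo (Equiv.swap p p') d with hw
  have hwX : w ∈ X := mo_mem hM hdc (by
    rw [hprod (by simp [hedef, hpj]) (by simp [hedef, hpj']), hedef,
      Finset.prod_update_of_mem (mem_univ j), Equiv.Perm.sign_swap hpp]
    simp)
  set h := g * w * g⁻¹ with hhdef
  have hha : ap h e[a] = (1 : F) • e[a] := by
    rw [hhdef, ap_mul, ap_mul, ← hudef, hwu, hudef, ap_ap_inv, one_smul]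
  obtain ⟨π, c, hπc⟩ : IsMon h :=
    by_contra fun hh => hN ⟨h, mul_mem (mul_mem hg hwX) (inv_mem hg), hh, a, 1, hha⟩
  have hwfix : ∀ x : ι → F, (∀ l ∈ ({p, p', j} : Finset ι), x l = 0) → ap w x = x := by
    intro x hx
    funext i
    rw [hw, ap_mo fun i => ne_zero_of_mem_cir (hdc i), Equiv.symm_swap]
    by_cases h1 : i = p
    · subst h1; rw [Equiv.swap_apply_left, hx p' (by simp), hx i (by simp), mul_zero]
    by_cases h2 : i = p'
    · subst h2; rw [Equiv.swap_apply_right, hx p (by simp), hx i (by simp), mul_zero]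
    rw [Equiv.swap_apply_of_ne_of_ne h1 h2, hdo i h1 h2]
    by_cases h3 : i = j
    · subst h3; rw [hx i (by simp), mul_zero]
    · simp [hedef, h3]
  have hcard := card_fixed_mon (π := π) (c := c) (r := 3)
    (by
      rw [← hπc, hhdef]
      have := card_le_fixSpace_conj (g := g⁻¹) hwfix
      rw [inv_inv] at this
      exact this.trans (Nat.add_le_add_left card_le_three _))
    (s := univ.filter fun m => ap (mon π c) e[m] = (e[m] : ι → F)) (fun m hm => by simp [hm])
  have hzero : ∀ m ∈ univ.filter fun m => ap (mon π c) e[m] = (e[m] : ι → F),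
      ap g e[j] m = 0 := by
    intro m hm
    simp only [mem_filter, mem_univ, true_and] at hm
    have h1 : ap w (ap g⁻¹ e[m]) = ap g⁻¹ e[m] := by
      conv_rhs => rw [← hm, ← hπc, hhdef, ap_mul, ap_mul, ap_inv_ap]
    have h2 := congrFun h1 j
    rw [hw, ap_mo fun i => ne_zero_of_mem_cir (hdc i), Equiv.symm_swap,
      Equiv.swap_apply_of_ne_of_ne (Ne.symm hpj) (Ne.symm hpj'), hdo j (Ne.symm hpj) (Ne.symm hpj'),
      hedef, Function.update_self] at h2
    have h3 : (2 : F) * ap g⁻¹ e[m] j = 0 := by linear_combination -h2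
    have htwo : (2 : F) ≠ 0 := by
      intro h
      have hev := FiniteField.even_card_of_char_two (F := F) (ringChar.eq_iff.mpr
        (CharP.charP_iff_prime_eq_zero Nat.prime_two |>.mpr (by exact_mod_cast h)))
      rw [hσ.card] at hev
      exact hq ((Nat.even_pow.mp (Nat.even_iff.mpr hev)).1)
    have h4 := (mul_eq_zero.mp h3).resolve_left htwo
    rw [ap_inv_entry (hX hg)] at h4
    exact (map_eq_zero σ).mp h4
  obtain ⟨m, hm, m', hm', hne⟩ := one_lt_card.mp (show 1 <
    (univ.filter fun m => ap (mon π c) e[m] = (e[m] : ι → F)).card by omega)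
  exact hZ g hg hgn j m m' hne (hzero m hm) (hzero m' hm')

lemma false_of_even (hN : ¬ FixLine X) (hq : Even q) {g : GL ι F} (hg : g ∈ X) (hgn : ¬ IsMon g)
    {j a : ι} (hja : ap g e[j] a = 0) {p p' : ι} (hpj : p ≠ j) (hpj' : p' ≠ j) (hpp : p ≠ p')
    (he : ap g⁻¹ e[a] p * σ (ap g⁻¹ e[a] p) = ap g⁻¹ e[a] p' * σ (ap g⁻¹ e[a] p')) :
    False := by
  have htwo : (2 : F) = 0 := by
    have hc : ringChar F = 2 := by
      by_contra h
      have := FiniteField.odd_card_of_char_ne_two h
      rw [hσ.card] at this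
      exact Nat.not_odd_iff_even.mpr (hq.pow_of_ne_zero two_ne_zero) (Nat.odd_iff.mpr this)
    have := ringChar.charP F
    rw [hc] at this
    exact CharP.cast_eq_zero F 2
  obtain ⟨hu0, hu⟩ := inv_col hX hZ hg hgn hja
  set u := ap g⁻¹ e[a] with hudef
  obtain ⟨d, hdc, hdp, hdp', hdo, hwu, hprod⟩ := swap_data hpp (hu p hpj) (hu p' hpj') he
    (e := fun _ => 1) (fun _ => one_mem_cir) (fun i _ _ => one_mul _)
  set w := mo (Equiv.swap p p') d with hw
  have hd0 := fun i => ne_zero_of_mem_cir (hdc i)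
  have hwX : w ∈ X := mo_mem hM hdc (by
    rw [hprod rfl rfl, Equiv.Perm.sign_swap hpp]
    simp
    linear_combination -htwo)
  set h := g * w * g⁻¹ with hhdef
  obtain ⟨π, c, hπc⟩ : IsMon h :=
    by_contra fun hh => hN ⟨h, mul_mem (mul_mem hg hwX) (inv_mem hg), hh, a, 1, by
      rw [hhdef, ap_mul, ap_mul, ← hudef, hwu, hudef, ap_ap_inv, one_smul]⟩
  -- the direction moved by `w`
  set r : ι → F := e[p] - Pi.single p' (d p') with hr
  have hmove : ∀ x, ap w x - x = (d p * x p' - x p) • r := by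
    intro x
    funext i
    rw [Pi.sub_apply, hw, ap_mo hd0, Equiv.symm_swap]
    by_cases h1 : i = p
    · subst h1; simp [hr, hpp]
    by_cases h2 : i = p'
    · subst h2
      have hdd : d p * d i = 1 := by
        rw [hdp, hdp', div_mul_div_cancel₀ (hu i hpj'), div_self (hu p hpj)]
      simp [hr, h1]
      linear_combination (x i) * hdd
    · simp [hr, h1, h2, Equiv.swap_apply_of_ne_of_ne h1 h2, hdo i h1 h2]
  obtain ⟨m, hm⟩ : ∃ m, ap h e[m] ≠ (e[m] : ι → F) := by
    by_contra hc
    push Not at hc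
    have h1 : h = 1 := Units.ext (Matrix.ext_of_mulVec_single fun i => by
      rw [← ap_def, ← ap_def, ap_one, hc i])
    have h2 : w = 1 := by
      rw [show w = g⁻¹ * h * g by rw [hhdef]; group, h1]; group
    have h3 := congrFun (congrArg (ap · (e[p] : ι → F)) h2) p
    simp [hw, ap_mo hd0, hpp.symm] at h3
  set P : Finset ι := {m, π m} with hP
  have hgr : ∀ l, l ∉ P → ap g r l = 0 := by
    intro l hl
    simp only [hP, mem_insert, mem_singleton, not_or] at hl
    set φ := d p * ap g⁻¹ e[m] p' - ap g⁻¹ e[m] p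
    have h1 : φ • ap g r = ap h e[m] - e[m] := by
      rw [← ap_smul, ← hmove, ap_sub, ap_ap_inv, hhdef, ap_mul, ap_mul]
    have hφ : φ ≠ 0 := fun e0 => hm (by
      rw [e0, zero_smul] at h1; exact sub_eq_zero.mp h1.symm)
    have h2 := congrFun h1 l
    rw [hπc, ap_mon_single] at h2
    simp [hl.1, hl.2, hφ] at h2
    exact h2
  obtain ⟨k, -, hk⟩ := exists_mem_notMem_of_card_lt_card (t := (univ : Finset ι))
    (s := {p, p'}) (lt_of_le_of_lt card_le_two (by rw [card_univ]; omega))
  simp only [mem_insert, mem_singleton, not_or] at hk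
  have hzc : ∀ c, (univ.filter fun l => ap g e[c] l = 0).card ≤ 1 := fun c => card_le_one.mpr
    fun x hx y hy => by_contra fun hne => hZ g hg hgn c x y hne (by simpa using hx) (by simpa using hy)
  -- the column of `p` has no zero outside `P`
  have hzp0 : ∀ l, l ∉ P → ap g e[p] l ≠ 0 := by
    intro l hl h0
    have h1 := hgr l hl
    rw [hr, ap_sub, Pi.sub_apply, h0, show (Pi.single p' (d p') : ι → F) = d p' • e[p'] by
      rw [← Pi.single_smul', smul_eq_mul, mul_one], ap_smul] at h1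
    simp [hd0] at h1
    exact hZ g⁻¹ (inv_mem hg) (not_isMon_inv hgn) l p p' hpp
      (by rw [ap_inv_entry (hX hg), h0, map_zero]) (by rw [ap_inv_entry (hX hg), h1, map_zero])
  have hPc : P.card ≤ 2 := card_le_two
  have hsub : (P ∪ univ.filter (fun l => ap g e[k] l = 0))ᶜ ⊆
      Pᶜ.filter fun l => ap g e[p] l * σ (ap g e[k] l) ≠ 0 := fun l hl => by
    simp only [mem_compl, mem_union, mem_filter, mem_univ, true_and, not_or] at hl ⊢
    exact ⟨hl.1, mul_ne_zero (hzp0 l hl.1) ((map_ne_zero σ).mpr hl.2)⟩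
  have hcount := card_le_card hsub
  rw [card_compl] at hcount
  have hu2 := card_union_le P (univ.filter (fun l => ap g e[k] l = 0))
  have hzk := hzc k
  have hP0 : 0 < P.card := card_pos.mpr ⟨m, by simp [hP]⟩
  obtain ⟨δ₁, δ₂, h1, h2, hp1, hp2, hs1, hs2, hne, ⟨u₀, hP1⟩, C, hC, hdC⟩ :
      ∃ d d' : ι → F, (∀ l, d l ∈ cir σ) ∧ (∀ l, d' l ∈ cir σ) ∧ ∏ l, d l = 1 ∧ ∏ l, d' l = 1 ∧
        ∑ l, ap g e[p] l * σ (ap g e[k] l) * d l = 0 ∧ ∑ l, ap g e[p] l * σ (ap g e[k] l) * d' l = 0 ∧
        d ≠ d' ∧ (∃ u, ∀ l ∈ P, d l = u ∧ d' l = u) ∧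
        ∃ C : Finset ι, C.card ≤ 4 ∧ ∀ l, l ∉ C → d l = d' l := by
    by_cases hzk' : ∃ l, l ∉ P ∧ ap g e[k] l = 0
    · obtain ⟨l₀, hl₀, h0⟩ := hzk'
      exact exists_pair_even_zero hσ hq (a := fun l => ap g e[p] l * σ (ap g e[k] l)) hl₀
        (by simp [h0]) (by omega)
    push Not at hzk'
    have hall : Pᶜ ⊆ Pᶜ.filter fun l => ap g e[p] l * σ (ap g e[k] l) ≠ 0 := fun l hl =>
      mem_filter.mpr ⟨hl, mul_ne_zero (hzp0 l (mem_compl.mp hl))
        ((map_ne_zero σ).mpr (hzk' l (mem_compl.mp hl)))⟩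
    have hc2 := card_le_card hall
    rw [card_compl] at hc2
    refine exists_pair_even hσ hq (a := fun l => ap g e[p] l * σ (ap g e[k] l)) P ?_
    rcases (show 10 ≤ Fintype.card ι ∨ Fintype.card ι = 9 by omega) with h | h
    · exact Or.inl (by omega)
    · exact Or.inr ⟨by omega, hP0, hPc⟩
  obtain ⟨δ, hδ, hzX, hzn⟩ := exists_not_isMon hn hM hZ hg hgn h1 h2 hp1 hp2 hne (C := C) (by omega) hdC
  have hδc : ∀ i, δ i ∈ cir σ := by rcases hδ with rfl | rfl <;> assumption
  have hsum : ∑ l, ap g e[p] l * σ (ap g e[k] l) * δ l = 0 := by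
    rcases hδ with rfl | rfl <;> assumption
  have hδP : ∀ l ∈ P, δ l = u₀ := fun l hl => by
    rcases hδ with rfl | rfl
    exacts [(hP1 l hl).1, (hP1 l hl).2]
  set z := g⁻¹ * dia δ * g with hz
  have hzp : ap z e[p] k = 0 := by
    have e1 := hb_single_right (σ := σ) (ap z e[p]) k 1
    rw [map_one, mul_one, hz, ap_mul, ap_mul, hb_ap_left (inv_mem (hX hg)), inv_inv] at e1
    rw [hz, ap_mul, ap_mul, ← e1, hb, ← hsum]
    refine Finset.sum_congr rfl fun l _ => ?_
    rw [ap_dia fun i => ne_zero_of_mem_cir (hδc i)]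
    ring
  have hzr : ap z r = u₀ • r := by
    have : ap (dia δ) (ap g r) = ap g (u₀ • r) := funext fun l => by
      rw [ap_dia fun i => ne_zero_of_mem_cir (hδc i), ap_smul, Pi.smul_apply, smul_eq_mul]
      by_cases hl : l ∈ P
      · rw [hδP l hl]
      · rw [hgr l hl, mul_zero, mul_zero]
    rw [hz, ap_mul, ap_mul, this, ap_inv_ap]
  have hzp' : ap z e[p'] k = 0 := by
    have := congrFun hzr k
    rw [hr, ap_sub, Pi.sub_apply, hzp, show (Pi.single p' (d p') : ι → F) = d p' • e[p'] by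
      rw [← Pi.single_smul', smul_eq_mul, mul_one], ap_smul] at this
    simp [hk.1, hk.2, hd0] at this
    exact this
  refine hZ z⁻¹ (inv_mem hzX) (not_isMon_inv hzn) k p p' hpp ?_ ?_
  · rw [ap_inv_entry (hX hzX), hzp, map_zero]
  · rw [ap_inv_entry (hX hzX), hzp', map_zero]

omit hZ in
/-- Some non-monomial element fixes a coordinate line. -/
theorem exists_fixLine {g₀ : GL ι F} (hg₀ : g₀ ∈ X) (hg₀n : ¬ IsMon g₀) : FixLine X := by
  by_contra hN
  have hZ := noTwoZeros hσ hn hX hM hN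
  obtain ⟨g, hg, hgn, j, a, hja⟩ := exists_zero hσ hn hX hM hZ hg₀ hg₀n
  obtain ⟨hu0, hu⟩ := inv_col hX hZ hg hgn hja
  by_cases hdvd : ∃ c ∈ cir σ, c ^ Fintype.card ι ≠ 1
  · obtain ⟨c, hc, hcn⟩ := hdvd
    have hc0 := ne_zero_of_mem_cir hc
    obtain ⟨n', hn'⟩ : ∃ n', Fintype.card ι = n' + 1 := ⟨Fintype.card ι - 1, by omega⟩
    set d : ι → F := Function.update (fun _ => c) a ((c ^ n')⁻¹) with hd
    have hdc : ∀ i, d i ∈ cir σ := fun i => by
      by_cases hi : i = a
      · subst hi; simpa [hd] using inv_mem_cir (pow_mem_cir hc n')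
      · simp [hd, hi, hc]
    have hd0 := fun i => ne_zero_of_mem_cir (hdc i)
    have hz : g⁻¹ * dia d * g ∈ X := mul_mem (mul_mem (inv_mem hg) (dia_mem hM hdc (by
      rw [hd, Finset.prod_update_of_mem (mem_univ a), prod_const, card_sdiff_of_subset (by simp),
        card_univ, card_singleton, hn', Nat.add_sub_cancel, inv_mul_cancel₀ (pow_ne_zero _ hc0)]))) hg
    set s := (c ^ n')⁻¹ - c with hs
    have hs0 : s ≠ 0 := fun h => hcn (by
      rw [hs, sub_eq_zero] at h
      rw [hn', pow_succ]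
      nth_rewrite 2 [← h]
      exact mul_inv_cancel₀ (pow_ne_zero _ hc0))
    have him : ∀ x, ap (g⁻¹ * dia d * g) x = c • x + (s * ap g x a) • ap g⁻¹ e[a] := by
      intro x
      have : ap (dia d) (ap g x) = c • ap g x + (s * ap g x a) • e[a] := funext fun i => by
        rw [ap_dia hd0]
        by_cases hi : i = a
        · subst hi; simp [hd, hs]; ring
        · simp [hd, hi]
      rw [ap_mul, ap_mul, this, ap_add, ap_smul, ap_smul, ap_inv_ap]
    refine hN ⟨_, hz, ?_, j, c, by rw [him, hja]; simp⟩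
    obtain ⟨m, hm⟩ : ∃ m, ap g e[m] a ≠ 0 := by
      by_contra h
      push Not at h
      have := h j
      obtain ⟨i, hi⟩ := Fintype.exists_ne_of_one_lt_card (show 1 < Fintype.card ι by omega) j
      exact hZ g⁻¹ (inv_mem hg) (not_isMon_inv hgn) a j i hi.symm hu0
        (by rw [ap_inv_entry (hX hg), h i, map_zero])
    obtain ⟨T, hT, hT2⟩ := exists_subset_card_eq (s := ({j, m} : Finset ι)ᶜ) (n := 2) (by
      have := card_le_two (a := j) (b := m); rw [card_compl]; omega)
    obtain ⟨i, i', hii, rfl⟩ := card_eq_two.mp hT2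
    have hTm : ∀ l ∈ ({i, i'} : Finset ι), l ≠ j ∧ l ≠ m := fun l hl => by simpa using hT hl
    refine not_isMon_of_two hii (j := m) ?_ ?_
    all_goals
      rw [him]
      simp only [Pi.add_apply, Pi.smul_apply, smul_eq_mul]
      rw [Pi.single_eq_of_ne (hTm _ (by simp)).2, mul_zero, zero_add]
      exact mul_ne_zero (mul_ne_zero hs0 hm) (hu _ (hTm _ (by simp)).1)
  · push Not at hdvd
    have hqn : q + 1 ≤ Fintype.card ι := by
      rw [← card_cir hσ]
      have hsub : cir σ ⊆ Polynomial.nthRootsFinset (Fintype.card ι) (1 : F) := fun c hc =>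
        (Polynomial.mem_nthRootsFinset (by omega) _).mpr (hdvd c hc)
      refine (card_le_card hsub).trans ?_
      rw [Polynomial.nthRootsFinset_def]
      exact (Multiset.toFinset_card_le _).trans (Polynomial.card_nthRoots _ _)
    obtain ⟨p, hp, p', hp', hpp, he⟩ := exists_ne_map_eq_of_card_lt_of_maps_to
      (s := univ.erase j) (t := (fxd σ).erase 0)
      (f := fun i => ap g⁻¹ e[a] i * σ (ap g⁻¹ e[a] i)) (by
        rw [card_erase_of_mem (mem_univ _), card_erase_of_mem (by simp [fxd]), card_univ,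
          card_fxd hσ]
        have := hσ.two_le
        omega)
      (fun i hi => by
        have := hu i (ne_of_mem_erase hi)
        simp [fxd, hσ.invol, mul_comm, this])
    by_cases hq : Even q
    · exact false_of_even hσ hn hX hM hZ hN hq hg hgn hja (ne_of_mem_erase hp)
        (ne_of_mem_erase hp') hpp he
    · exact false_of_odd hσ hn hX hM hZ hN hq hg hgn hja (ne_of_mem_erase hp)
        (ne_of_mem_erase hp') hpp he

omit hn hX hZ hσ in
/-- Hence every coordinate line is fixed by such an element. -/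
theorem fixLine_all (h : FixLine X) (o : ι) :
    ∃ z ∈ X, ¬ IsMon z ∧ ∃ γ : F, ap z e[o] = γ • e[o] := by
  obtain ⟨z, hz, hzn, o₀, γ, hγ⟩ := h
  by_cases ho : o = o₀
  · exact ⟨z, hz, hzn, γ, ho ▸ hγ⟩
  set d : ι → F := Function.update 1 o (-1) with hd
  have hdc : ∀ i, d i ∈ cir σ := fun i => by
    by_cases hi : i = o
    · subst hi; simpa [hd] using neg_mem_cir (σ := σ) one_mem_cir
    · simp [hd, hi, one_mem_cir]
  set w := mo (Equiv.swap o o₀) d with hw
  have hwX : w ∈ X := mo_mem hM hdc (by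
    rw [Equiv.Perm.sign_swap ho, hd, Finset.prod_update_of_mem (mem_univ o)]
    simp)
  refine ⟨w * z * w⁻¹, mul_mem (mul_mem hwX hz) (inv_mem hwX), fun h => hzn ?_, γ, ?_⟩
  · have := ((isMon_mo (Equiv.swap o o₀) d).inv.mul h).mul (isMon_mo (Equiv.swap o o₀) d)
    rw [← hw] at this
    convert this using 1
    group
  · have h1 : ap w e[o₀] = d o • e[o] := funext fun i => by
      rw [hw, ap_mo fun i => ne_zero_of_mem_cir (hdc i), Equiv.symm_swap]
      by_cases hi : i = o
      · subst hi; simp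
      · have : Equiv.swap o o₀ i ≠ o₀ := fun e => hi (by
          rw [← Equiv.swap_apply_self o o₀ i, e, Equiv.swap_apply_right])
        simp [hi, this]
    have h2 : ap w⁻¹ e[o] = (d o)⁻¹ • e[o₀] := by
      apply ap_injective w
      rw [ap_ap_inv, ap_smul, h1, smul_smul, inv_mul_cancel₀ (ne_zero_of_mem_cir (hdc o)), one_smul]
    rw [ap_mul, ap_mul, h2, ap_smul, hγ, ap_smul, ap_smul, h1, smul_smul, smul_smul]
    congr 1
    field_simp [ne_zero_of_mem_cir (hdc o)]

end Steps

end CfsgLib.UMon
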