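import Cfsg.Agent.Lib.Geometric.UnitaryMonomial.Quot

/-!
Every unit vector of the hyperplane has its quasi-reflections induced by the overgroup.
-/

set_option autoImplicit false

namespace CfsgLib.UMon

open CfsgLib.Geometric Finset Matrix

variable {ι : Type} [Fintype ι] [DecidableEq ι] {F : Type*} [Field F] [Fintype F] [DecidableEq F]
variable {σ : F ≃+* F} {q : ℕ}

local notation "e[" j "]" => (Pi.single j (1 : _) : ι → _)

/-- The norms of `1 - d` for `d ≠ 1` of norm one. -/
def traceSet (σ : F ≃+* F) : Finset F := ((cir σ).erase 1).image (nv σ 1 (-1))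

lemma mem_traceSet {m : F} : m ∈ traceSet σ ↔
    ∃ d ∈ cir σ, d ≠ 1 ∧ (1 - d) * σ (1 - d) = m := by
  simp only [traceSet, mem_image, mem_erase, nv, neg_one_mul, ← sub_eq_add_neg]
  exact ⟨fun ⟨d, ⟨h1, h2⟩, h⟩ => ⟨d, h2, h1, h⟩, fun ⟨d, h1, h2, h⟩ => ⟨d, ⟨h2, h1⟩, h⟩⟩

section Field

variable (hσ : IsConj σ q)
include hσ

lemma traceSet_fxd {m : F} (h : m ∈ traceSet σ) : σ m = m ∧ m ≠ 0 := by
  obtain ⟨d, -, hd1, rfl⟩ := mem_traceSet.mp h
  refine ⟨by rw [map_mul, hσ.invol, mul_comm], ?_⟩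
  exact mul_ne_zero (sub_ne_zero.mpr (Ne.symm hd1))
    ((map_ne_zero σ).mpr (sub_ne_zero.mpr (Ne.symm hd1)))

lemma le_card_traceSet : q ≤ 2 * (traceSet σ).card := by
  have h := card_le_two_mul_image (σ := σ) (one_ne_zero : (1 : F) ≠ 0)
    (neg_ne_zero.mpr one_ne_zero) (erase_subset 1 (cir σ))
  rwa [card_erase_of_mem one_mem_cir, card_cir hσ, Nat.add_sub_cancel] at h

/-- `p m + p' m' = 1` is solvable, with one kind of exception. -/
lemma exists_mix {p p' : F} (hp : σ p = p) (hp' : σ p' = p') (hp0 : p ≠ 0) (hp'0 : p' ≠ 0) :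
    (∃ m ∈ traceSet σ, ∃ m' ∈ traceSet σ, p * m + p' * m' = 1) ∨
      (Even q ∧ 2 * (traceSet σ).card = q ∧ p'⁻¹ ∈ traceSet σ) := by
  by_cases hex : ∃ m ∈ traceSet σ, ∃ m' ∈ traceSet σ, p * m + p' * m' = 1
  · exact Or.inl hex
  refine Or.inr ?_
  set P := (traceSet σ).image (p * ·) with hP
  set P' := (traceSet σ).image (fun m => 1 - p' * m) with hP'
  have hdis : Disjoint P P' := disjoint_left.mpr fun x hx hx' => by
    obtain ⟨m, hm, rfl⟩ := mem_image.mp hx
    obtain ⟨m', hm', he⟩ := mem_image.mp hx'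
    exact hex ⟨m, hm, m', hm', by linear_combination -he⟩
  have h1 : P.card = (traceSet σ).card := card_image_of_injective _ (mul_right_injective₀ hp0)
  have h2 : P'.card = (traceSet σ).card := card_image_of_injective _ fun a b h =>
    mul_left_cancel₀ hp'0 (sub_right_injective h)
  have hsub : P ∪ P' ⊆ fxd σ := by
    refine union_subset ?_ ?_ <;> intro x hx <;> obtain ⟨m, hm, rfl⟩ := mem_image.mp hx
    · simp [fxd, hp, (traceSet_fxd hσ hm).1]
    · simp [fxd, hp', (traceSet_fxd hσ hm).1]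
  have hc := card_le_card hsub
  rw [card_union_of_disjoint hdis, card_fxd hσ, h1, h2] at hc
  have hle := le_card_traceSet hσ
  refine ⟨⟨(traceSet σ).card, by omega⟩, by omega, ?_⟩
  have heq : P ∪ P' = fxd σ := eq_of_subset_of_card_le hsub (by
    rw [card_union_of_disjoint hdis, card_fxd hσ]; omega)
  have h0 : (0 : F) ∈ P ∪ P' := by rw [heq]; simp [fxd]
  rcases mem_union.mp h0 with h | h
  · obtain ⟨m, hm, hm0⟩ := mem_image.mp h
    exact absurd ((mul_eq_zero.mp hm0).resolve_left hp0) (traceSet_fxd hσ hm).2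
  · obtain ⟨m, hm, hm0⟩ := mem_image.mp h
    rw [show p'⁻¹ = m from inv_eq_of_mul_eq_one_right (by linear_combination -hm0)]
    exact hm

omit hσ in
omit [Fintype F] [DecidableEq F] in
lemma telescope [CharP F 2] (y : F) (e : ℕ) :
    ∑ i ∈ range e, (y ^ 2 + y) ^ 2 ^ i = y ^ 2 ^ e + y := by
  have : Fact (Nat.Prime 2) := ⟨Nat.prime_two⟩
  induction e with
  | zero => simp [CharTwo.add_self_eq_zero]
  | succ e ih =>
    rw [sum_range_succ, ih, add_pow_char_pow, ← pow_mul, ← pow_succ']
    linear_combination CharTwo.add_self_eq_zero (y ^ 2 ^ e)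

/-- The exceptional configuration is contradictory. -/
lemma not_invariant {c : F} (hq3 : 3 ≤ q) (hq : Even q) (hcard : 2 * (traceSet σ).card = q)
    (hc0 : c ≠ 0) (hinv : ∀ m ∈ traceSet σ, (m * c)⁻¹ ∈ traceSet σ) :
    c = 1 ∧ q = 4 := by
  have hp2 : ringChar F = 2 := by
    by_contra h
    have := FiniteField.odd_card_of_char_ne_two h
    rw [hσ.card] at this
    exact Nat.not_odd_iff_even.mpr (hq.pow_of_ne_zero two_ne_zero) (Nat.odd_iff.mpr this)
  have := ringChar.charP F
  rw [hp2] at this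
  obtain ⟨n, -, hn⟩ := FiniteField.card F 2
  obtain ⟨e, -, he⟩ : ∃ e ≤ (n : ℕ), q = 2 ^ e := by
    have hdvd : q ∣ 2 ^ (n : ℕ) := ⟨q, by rw [← hn, hσ.card, sq]⟩
    exact (Nat.dvd_prime_pow Nat.prime_two).mp hdvd
  obtain ⟨e, rfl⟩ : ∃ e', e = e' + 2 := ⟨e - 2, by
    rcases Nat.lt_or_ge e 2 with h | h
    · interval_cases e <;> omega
    · omega⟩
  -- the trace of the inverse is one
  have key : ∀ m ∈ traceSet σ, ∑ i ∈ range (e + 2), (m⁻¹) ^ 2 ^ i = 1 := by
    intro m hm
    obtain ⟨hmf, hm0⟩ := traceSet_fxd hσ hm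
    obtain ⟨d, hd, hd1, hdm⟩ := mem_traceSet.mp hm
    have hsum : (1 - d) + σ (1 - d) = m := by
      have := mem_cir.mp hd
      rw [map_sub, map_one] at hdm ⊢
      linear_combination hdm - this
    set x := 1 - d with hx
    have hy : (x / m) ^ 2 + x / m = m⁻¹ := by
      have h2 : (x * x) + (x * x) = 0 := CharTwo.add_self_eq_zero _
      field_simp
      linear_combination hdm + h2 - x * hsum
    rw [← hy, telescope, show (x / m) ^ 2 ^ (e + 2) = σ (x / m) by rw [hσ.pow, he], map_div₀, hmf,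
      ← add_div, add_comm, hsum, div_self hm0]
  set N := 2 ^ (e + 1) with hN
  set S := (traceSet σ).image (·⁻¹) with hS
  have hScard : S.card = N := by
    rw [hS, card_image_of_injective _ inv_injective]
    rw [he, show 2 ^ (e + 2) = 2 * N by rw [hN]; ring] at hcard
    omega
  set D : Polynomial F := (∑ i ∈ range (e + 2), Polynomial.C (c ^ 2 ^ i) *
      Polynomial.X ^ (N - 2 ^ i)) + Polynomial.X ^ N -
      ((∑ i ∈ range (e + 2), Polynomial.X ^ 2 ^ i) + 1) with hD
  have hDev : ∀ s ∈ S, D.eval s = 0 := by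
    intro s hs
    obtain ⟨m, hm, rfl⟩ := mem_image.mp hs
    obtain ⟨-, hm0⟩ := traceSet_fxd hσ hm
    have h2 := key _ (hinv m hm)
    rw [inv_inv] at h2
    have h3 : ∀ i ∈ range (e + 2), c ^ 2 ^ i * m⁻¹ ^ (N - 2 ^ i) = (m * c) ^ 2 ^ i * m⁻¹ ^ N := by
      intro i hi
      have hle : 2 ^ i ≤ N := Nat.pow_le_pow_right two_pos (by simp at hi; omega)
      conv_rhs => rw [← Nat.sub_add_cancel hle, pow_add, mul_pow]
      have : m ^ 2 ^ i * m⁻¹ ^ 2 ^ i = 1 := by rw [← mul_pow, mul_inv_cancel₀ hm0, one_pow]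
      linear_combination -(c ^ 2 ^ i * m⁻¹ ^ (N - 2 ^ i)) * this
    simp only [hD, Polynomial.eval_sub, Polynomial.eval_add, Polynomial.eval_finsetSum,
      Polynomial.eval_mul, Polynomial.eval_C, Polynomial.eval_pow, Polynomial.eval_X,
      Polynomial.eval_one, key m hm]
    rw [Finset.sum_congr rfl h3, ← sum_mul, h2, one_mul,
      CharTwo.add_self_eq_zero, CharTwo.add_self_eq_zero, sub_zero]
  have hcoeff : ∀ k, D.coeff k =
      (∑ i ∈ range (e + 2), if k = N - 2 ^ i then c ^ 2 ^ i else 0) +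
        (if k = N then 1 else 0) -
        ((∑ i ∈ range (e + 2), if k = 2 ^ i then (1 : F) else 0) + if k = 0 then 1 else 0) := by
    intro k
    simp [hD, Polynomial.coeff_X_pow, Polynomial.coeff_one, Polynomial.coeff_C_mul, -map_pow]
  have hD0 : D = 0 := by
    refine Polynomial.eq_zero_of_degree_lt_of_eval_finset_eq_zero S ?_ hDev
    rw [hScard, Polynomial.degree_lt_iff_coeff_zero]
    intro k hk
    rw [hcoeff]
    have hN0 : 0 < N := by positivity
    rw [Finset.sum_eq_zero fun i _ => if_neg (by have := Nat.two_pow_pos i; omega),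
      if_neg (show k ≠ 0 by omega), zero_add, add_zero]
    by_cases hkN : k = N
    · subst hkN
      rw [if_pos rfl, Finset.sum_eq_single (e + 1) (fun i _ hi => if_neg fun h => hi
        (Nat.pow_right_injective le_rfl h.symm)) (by simp), if_pos rfl, sub_self]
    · rw [if_neg hkN, Finset.sum_eq_zero fun i hi => if_neg ?_, sub_zero]
      have : 2 ^ i ≤ N := Nat.pow_le_pow_right two_pos (by simp at hi; omega)
      omega
  have h1 := hcoeff (N - 1)
  rw [hD0, Polynomial.coeff_zero] at h1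
  have hN2 : 2 ≤ N := by rw [hN, pow_succ]; have := Nat.two_pow_pos e; omega
  rw [Finset.sum_eq_single 0 (fun i hi h0 => if_neg ?_) (by simp), pow_zero, if_pos (by omega),
    pow_one, if_neg (by omega), if_neg (show N - 1 ≠ 0 by omega), add_zero, add_zero] at h1
  swap
  · have : 2 ^ i ≤ N := Nat.pow_le_pow_right two_pos (by simp at hi; omega)
    have : 2 ≤ 2 ^ i := by
      calc 2 = 2 ^ 1 := rfl
        _ ≤ 2 ^ i := Nat.pow_le_pow_right two_pos (by omega)
    omega
  cases e with
  | zero =>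
    refine ⟨?_, by rw [he]; norm_num⟩
    rw [Finset.sum_eq_single 0 (fun i hi h0 => if_neg ?_) (by simp), pow_zero,
      if_pos (by rw [hN]; norm_num)] at h1
    · exact sub_eq_zero.mp h1.symm
    · simp at hi; rw [hN]
      have : i = 1 := by omega
      subst this; norm_num
  | succ e =>
    rw [Finset.sum_eq_zero fun i _ => if_neg ?_, sub_zero] at h1
    · exact absurd h1.symm hc0
    · intro h
      cases i with
      | zero => rw [hN] at h; have := Nat.two_pow_pos e; simp [pow_succ] at h; omega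
      | succ i => rw [hN] at h; simp [pow_succ] at h; omega

end Field

section Plane

variable {X : Subgroup (GL ι F)} {o : ι} (hσ : IsConj σ q) (hM : MonIn σ X)
include hσ hM

omit hσ in
lemma inR_diag {u : ι → F} (h : InR σ X o u) {d : ι → F} (hd : ∀ i, d i ∈ cir σ) (hdo : d o = 1) :
    InR σ X o (fun m => d m * u m) :=
  h.moved hM (π := 1) rfl hd hdo

omit hσ in
/-- A diagonal translate can be reflected back to the difference. -/
lemma inR_diff {u : ι → F} (h : InR σ X o u) {d : ι → F} (hd : ∀ i, d i ∈ cir σ) (hdo : d o = 1)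
    {v : ι → F} (hv : ∀ m, v m = (d m - 1) * u m)
    (htr : 1 + hb σ v u + σ (1 + hb σ v u) = 1) : InR σ X o v := by
  set S := 1 + hb σ v u with hS
  have hS0 : S ≠ 0 := fun e => by rw [e, map_zero, add_zero] at htr; exact zero_ne_one htr
  have hσS : σ S ≠ 0 := (map_ne_zero σ).mpr hS0
  have hμ : 1 - S⁻¹ ∈ cir σ := by
    rw [mem_cir, map_sub, map_one, map_inv₀]
    field_simp
    linear_combination -htr
  have h1 := (inR_diag hM h hd hdo).ap (h.2.2 _ hμ)
  have hdu : (fun m => d m * u m) = u + v := funext fun m => by simp [hv]; ring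
  rw [hdu, ap_rf h.1 hμ, hb_add_left, h.1, ← hS] at h1
  convert h1 using 1
  rw [show (1 - S⁻¹ - 1) * S = -1 by field_simp; ring]
  module

omit hM in
omit [DecidableEq ι] [DecidableEq F] in
lemma sigma_norm (x : F) : σ (x * σ x) = x * σ x := by rw [map_mul, hσ.invol, mul_comm]

/-- Two coordinates with `p m + p' m' = 1` give a vector supported by exactly these. -/
lemma inR_pair {u : ι → F} (h : InR σ X o u) {i j : ι} (hij : i ≠ j) (hi : u i ≠ 0) (hj : u j ≠ 0)
    {m m' : F} (hm : m ∈ traceSet σ) (hm' : m' ∈ traceSet σ)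
    (he : u i * σ (u i) * m + u j * σ (u j) * m' = 1) :
    ∃ v, InR σ X o v ∧ univ.filter (fun l => v l ≠ 0) = {i, j} := by
  obtain ⟨a, ha, ha1, hma⟩ := mem_traceSet.mp hm
  obtain ⟨b, hb', hb1, hmb⟩ := mem_traceSet.mp hm'
  have hio : i ≠ o := fun e => hi (e ▸ h.2.1)
  have hjo : j ≠ o := fun e => hj (e ▸ h.2.1)
  set v : ι → F := Pi.single i ((a - 1) * u i) + Pi.single j ((b - 1) * u j) with hv
  refine ⟨v, inR_diff hM h (d := Function.update (Function.update 1 i a) j b) (fun l => ?_)
    (by simp [Ne.symm hio, Ne.symm hjo]) (fun l => ?_) ?_, ?_⟩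
  · by_cases h1 : l = j
    · subst h1; simpa using hb'
    by_cases h2 : l = i
    · subst h2; simpa [h1] using ha
    · simp [h1, h2, one_mem_cir]
  · by_cases h1 : l = j
    · subst h1; simp [hv, hij.symm]
    by_cases h2 : l = i
    · subst h2; simp [hv, hij]
    · simp [hv, h1, h2]
  · rw [hv, hb_add_left, hb_single_left, hb_single_left]
    rw [map_sub, map_one] at hma hmb
    simp only [map_add, map_one, map_mul, map_sub, hσ.invol]
    linear_combination -he + (u i * σ (u i)) * (mem_cir.mp ha - hma) +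
      (u j * σ (u j)) * (mem_cir.mp hb' - hmb)
  · ext l
    simp only [mem_filter, mem_univ, true_and, mem_insert, mem_singleton, hv, Pi.add_apply]
    by_cases h1 : l = j
    · subst h1; simp [hij.symm, sub_ne_zero.mpr hb1, hj]
    by_cases h2 : l = i
    · subst h2; simp [hij, sub_ne_zero.mpr ha1, hi]
    · simp [h1, h2]

/-- Some unit vector of weight two (three for two elements). -/
lemma exists_inR_small {u₀ : ι → F} (h₀ : InR σ X o u₀) (hw₀ : 2 ≤ wt u₀) :
    (3 ≤ q → ∃ v, InR σ X o v ∧ wt v = 2) ∧ (q = 2 → ∃ v, InR σ X o v ∧ wt v = 3) := by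
  constructor
  · intro hq3
    by_contra hno
    push Not at hno
    have hexc : ∀ u, InR σ X o u → ∀ i j, i ≠ j → u i ≠ 0 → u j ≠ 0 →
        Even q ∧ 2 * (traceSet σ).card = q ∧ (u j * σ (u j))⁻¹ ∈ traceSet σ := by
      intro u hu i j hij hi hj
      rcases exists_mix hσ (sigma_norm hσ (u i)) (sigma_norm hσ (u j))
        (mul_ne_zero hi ((map_ne_zero σ).mpr hi)) (mul_ne_zero hj ((map_ne_zero σ).mpr hj)) with
        ⟨m, hm, m', hm', he⟩ | h
      · obtain ⟨v, hv, hvs⟩ := inR_pair hσ hM hu hij hi hj hm hm' he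
        exact absurd (by rw [wt, hvs, card_pair hij]) (hno v hv)
      · exact h
    have hw3 : 3 ≤ wt u₀ := by
      have := hno u₀ h₀
      omega
    obtain ⟨a, b, c, ha, hb', hc, hab, hac, hbc⟩ := two_lt_card_iff.mp hw3
    simp only [mem_filter, mem_univ, true_and] at ha hb' hc
    obtain ⟨heven, hcard, hca⟩ := hexc u₀ h₀ b a hab.symm hb' ha
    set p : ι → F := fun l => u₀ l * σ (u₀ l) with hp
    have hprod : ∀ x y z, x ≠ y → x ≠ z → y ≠ z → u₀ x ≠ 0 → u₀ y ≠ 0 → u₀ z ≠ 0 →
        p x * p y = 1 ∧ q = 4 := by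
      intro x y z hxy hxz hyz hx hy hz
      refine not_invariant hσ hq3 heven hcard (mul_ne_zero (mul_ne_zero hx
        ((map_ne_zero σ).mpr hx)) (mul_ne_zero hy ((map_ne_zero σ).mpr hy))) fun m hm => ?_
      obtain ⟨d, hd, hd1, hdm⟩ := mem_traceSet.mp hm
      have hu' := (inR_single hM (fun e => hx (e ▸ h₀.2.1) : x ≠ o)).ap (h₀.2.2 d hd)
      rw [ap_rf h₀.1 hd, hb_single_left, one_mul] at hu'
      set k := (d - 1) * σ (u₀ x) with hk
      have hk0 : k ≠ 0 := mul_ne_zero (sub_ne_zero.mpr hd1) ((map_ne_zero σ).mpr hx)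
      have := (hexc _ hu' z y hyz.symm (by simp [hxz.symm, hz, hk0])
        (by simp [hxy.symm, hy, hk0])).2.2
      convert this using 2
      have e1 : ((e[x] : ι → F) + k • u₀) y = k * u₀ y := by simp [hxy.symm]
      rw [e1, hk, map_mul, map_mul, hσ.invol, ← hdm]
      simp only [hp, map_sub, map_one]
      ring
    obtain ⟨hab1, hq4⟩ := hprod a b c hab hac hbc ha hb' hc
    obtain ⟨hac1, -⟩ := hprod a c b hac hab hbc.symm ha hc hb'
    obtain ⟨hbc1, -⟩ := hprod b c a hbc hab.symm hac.symm hb' hc ha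
    -- all three norms are one, but one is not in the trace set
    have hsq : p a * p a = 1 := by
      linear_combination (-p a * p a) * hbc1 + (p a * p c) * hab1 + hac1
    have hp2 : ringChar F = 2 := by
      by_contra h
      have := FiniteField.odd_card_of_char_ne_two h
      rw [hσ.card] at this
      exact Nat.not_odd_iff_even.mpr (heven.pow_of_ne_zero two_ne_zero) (Nat.odd_iff.mpr this)
    have hchar := ringChar.charP F
    rw [hp2] at hchar
    have hpa : p a = 1 := by
      rcases mul_self_eq_one_iff.mp hsq with h | h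
      · exact h
      · rw [h, CharTwo.neg_eq]
    rw [show u₀ a * σ (u₀ a) = p a from rfl, hpa, inv_one] at hca
    obtain ⟨d, hd, -, hdm⟩ := mem_traceSet.mp hca
    have hd2 : d * d + d + 1 = 0 := by
      rw [map_sub, map_one] at hdm
      linear_combination (-d) * hdm + (d - 1) * mem_cir.mp hd +
        CharTwo.add_self_eq_zero (d : F)
    have h3 : d ^ 3 = 1 := by linear_combination (d - 1) * hd2
    have h5 : d ^ 5 = 1 := by
      have := pow_card_cir hσ hd
      rwa [hq4] at this
    have hd' : d = 1 := by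
      linear_combination (-d) * h5 + (d ^ 3 + 1) * h3
    rw [hd'] at hd2
    exact one_ne_zero (α := F) (by linear_combination hd2 - CharTwo.add_self_eq_zero (1 : F))
  · intro hq2
    have hnorm : ∀ x : F, x ≠ 0 → x * σ x = 1 := fun x hx => by
      have hcard : ((fxd σ).erase 0).card = 1 := by
        rw [card_erase_of_mem (by simp [fxd]), card_fxd hσ, hq2]
      refine card_le_one.mp hcard.le _ ?_ 1 (by simp [fxd])
      simp [fxd, sigma_norm hσ, hx]
    have hw3 : 3 ≤ wt u₀ := by
      by_contra h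
      obtain ⟨a, b, hab, hS⟩ := card_eq_two.mp (show wt u₀ = 2 by omega)
      have hmem : ∀ l, u₀ l ≠ 0 ↔ l = a ∨ l = b := fun l => by
        simpa using Finset.ext_iff.mp hS l
      have h1 := h₀.1
      rw [hb, ← Finset.sum_subset (subset_univ {a, b}) fun l _ hl => by
        simp at hl
        have : u₀ l = 0 := by
          by_contra hne
          rcases (hmem l).mp hne with e | e
          exacts [hl.1 e, hl.2 e]
        rw [this, zero_mul], sum_pair hab, hnorm _ ((hmem a).mpr (Or.inl rfl)),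
        hnorm _ ((hmem b).mpr (Or.inr rfl))] at h1
      exact one_ne_zero (α := F) (by linear_combination h1)
    obtain ⟨ω, hω, hω1⟩ := exists_ne_one hσ
    have htr : ω + σ ω = -1 := by
      have h1 : ω ^ 3 = 1 := by have := pow_card_cir hσ hω; rwa [hq2] at this
      have h2 : σ ω = ω ^ 2 := by rw [hσ.pow, hq2]
      have h3 : (ω - 1) * (ω * ω + ω + 1) = 0 := by linear_combination h1
      rw [h2]
      linear_combination (mul_eq_zero.mp h3).resolve_left (sub_ne_zero.mpr hω1)
    obtain ⟨T, hT, hT3⟩ := exists_subset_card_eq hw3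
    have hT' : ∀ l ∈ T, u₀ l ≠ 0 := fun l hl => by simpa using hT hl
    set d : ι → F := fun l => if l ∈ T then ω else 1 with hd
    set v : ι → F := fun l => if l ∈ T then (ω - 1) * u₀ l else 0 with hv
    refine ⟨v, inR_diff hM h₀ (d := d) (fun l => ?_) ?_ (fun l => ?_) ?_, ?_⟩
    · simp only [hd]; split_ifs
      exacts [hω, one_mem_cir]
    · exact if_neg fun h => hT' o h h₀.2.1
    · simp only [hd, hv]; split_ifs <;> simp
    · have e1 : hb σ v u₀ = 3 * (ω - 1) := by
        rw [hb, ← Finset.sum_subset (subset_univ T) fun l _ hl => by simp [hv, hl],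
          Finset.sum_congr rfl fun l hl => show v l * σ (u₀ l) = ω - 1 by
            simp only [hv, if_pos hl]; rw [mul_assoc, hnorm _ (hT' l hl), mul_one],
          sum_const, hT3, nsmul_eq_mul, Nat.cast_ofNat]
      have h20 : (2 : F) = 0 := by
        have h4 : ((4 : ℕ) : F) = 0 := by
          rw [show 4 = Fintype.card F by rw [hσ.card, hq2]; rfl]
          exact FiniteField.cast_card_eq_zero F
        have : (2 : F) * 2 = 0 := by push_cast at h4; linear_combination h4
        exact mul_self_eq_zero.mp this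
      rw [e1, map_add, map_mul, map_sub, map_one, map_ofNat]
      linear_combination 3 * htr + (-4) * h20
    · rw [wt, ← hT3]
      congr 1
      ext l
      simp only [hv, mem_filter, mem_univ, true_and]
      by_cases hl : l ∈ T
      · simp [hl, sub_ne_zero.mpr hω1, hT' l hl]
      · simp [hl]

/-- A unit vector on two coordinates gives all others on the same coordinates. -/
lemma inR_plane {u : ι → F} (hu : InR σ X o u) {i j : ι} (hij : i ≠ j)
    (hsu : univ.filter (fun l => u l ≠ 0) = {i, j}) {v : ι → F} (hv : hb σ v v = 1)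
    (hvi : v i ≠ 0) (hvj : v j ≠ 0) (hsv : ∀ l, l ≠ i → l ≠ j → v l = 0) : InR σ X o v := by
  have hmem : ∀ l, u l ≠ 0 ↔ l = i ∨ l = j := fun l => by simpa using Finset.ext_iff.mp hsu l
  have hi : u i ≠ 0 := (hmem i).mpr (Or.inl rfl)
  have hj : u j ≠ 0 := (hmem j).mpr (Or.inr rfl)
  have hsu' : ∀ l, l ≠ i → l ≠ j → u l = 0 := fun l h1 h2 => by
    by_contra h
    rcases (hmem l).mp h with e | e
    exacts [h1 e, h2 e]
  have hio : i ≠ o := fun e => hi (e ▸ hu.2.1)
  have hjo : j ≠ o := fun e => hj (e ▸ hu.2.1)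
  have two : ∀ x y : ι → F, (∀ l, l ≠ i → l ≠ j → x l = 0) →
      hb σ x y = x i * σ (y i) + x j * σ (y j) := fun x y hx => by
    rw [hb, ← Finset.sum_subset (subset_univ {i, j}) fun l _ hl => by
      simp at hl; rw [hx l hl.1 hl.2, zero_mul], sum_pair hij]
  have hσi : σ (u i) ≠ 0 := (map_ne_zero σ).mpr hi
  have hσj : σ (u j) ≠ 0 := (map_ne_zero σ).mpr hj
  obtain ⟨a, ha, b, hb', hab⟩ := exists_nv_eq hσ (mul_ne_zero hj hσj) (mul_ne_zero hi hσi)
    (mul_ne_zero hvj hσj) (mul_ne_zero hvi hσi)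
  -- align a translate of `u` with a translate of `v`
  set x : ι → F := fun l => Function.update (1 : ι → F) i a l * u l with hx
  set y : ι → F := fun l => Function.update (1 : ι → F) i b l * v l with hy
  have hdc : ∀ c ∈ cir σ, ∀ l, Function.update (1 : ι → F) i c l ∈ cir σ := fun c hc l => by
    by_cases h : l = i
    · subst h; simpa using hc
    · simp [h, one_mem_cir]
  have hxR : InR σ X o x := inR_diag hM hu (hdc a ha) (by simp [Ne.symm hio])
  have hx0 : ∀ l, l ≠ i → l ≠ j → x l = 0 := fun l h1 h2 => by simp [hx, hsu' l h1 h2]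
  have hy0 : ∀ l, l ≠ i → l ≠ j → y l = 0 := fun l h1 h2 => by simp [hy, hsv l h1 h2]
  have hxi : x i = a * u i := by simp [hx]
  have hxj : x j = u j := by simp [hx, hij.symm]
  have hyi : y i = b * v i := by simp [hy]
  have hyj : y j = v j := by simp [hy, hij.symm]
  have hx1 := hxR.1
  have hy1 : hb σ y y = 1 := by
    rw [two y y hy0, hyi, hyj, ← hv, two v v hsv, map_mul]
    linear_combination (v i * σ (v i)) * mem_cir.mp hb'
  set k : (ι → F) → F := fun z => hb σ z u with hk
  set l' : (ι → F) → F := fun z => -(z i * u j) + z j * u i with hl'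
  have hsum : u i * σ (u i) + u j * σ (u j) = 1 := (two u u hsu').symm.trans hu.1
  have hnormkl : ∀ z : ι → F, (∀ l, l ≠ i → l ≠ j → z l = 0) →
      k z * σ (k z) + l' z * σ (l' z) = hb σ z z := fun z hz => by
    simp only [hk, hl', two z u hz, two z z hz, map_add, map_mul, map_neg, hσ.invol]
    linear_combination (z i * σ (z i) + z j * σ (z j)) * hsum
  have hkk : k x * σ (k x) = k y * σ (k y) := by
    simp only [hk, two x u hx0, two y u hy0, hxi, hxj, hyi, hyj]
    rw [nv, nv] at hab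
    rw [show a * u i * σ (u i) + u j * σ (u j) = u j * σ (u j) + u i * σ (u i) * a by ring,
      show b * v i * σ (u i) + v j * σ (u j) = v j * σ (u j) + v i * σ (u i) * b by ring]
    exact hab
  have hll : l' y * σ (l' y) = l' x * σ (l' x) := by
    linear_combination hnormkl y hy0 - hnormkl x hx0 + hkk + hy1 - hx1
  obtain ⟨ε, hε, hεl⟩ := exists_rot hll
  obtain ⟨μ, hμ, hμk⟩ := exists_rot (σ := σ) (a := k x) (b := ε * k y) (by
    rw [map_mul, hkk]
    linear_combination -(k y * σ (k y)) * mem_cir.mp hε)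
  have hfin : ap (rf σ u μ) x = ε • y := by
    rw [ap_rf hu.1 hμ]
    funext l
    simp only [Pi.add_apply, Pi.smul_apply, smul_eq_mul]
    by_cases h1 : l = i
    · subst h1
      simp only [hk, hl', two x u hx0, two y u hy0] at hεl hμk ⊢
      linear_combination (u l) * hμk + (σ (u j)) * hεl + (ε * y l - x l) * hsum
    by_cases h2 : l = j
    · subst h2
      simp only [hk, hl', two x u hx0, two y u hy0] at hεl hμk ⊢
      linear_combination (u l) * hμk - (σ (u i)) * hεl + (ε * y l - x l) * hsum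
    · rw [hx0 l h1 h2, hy0 l h1 h2, hsu' l h1 h2]; ring
  have h3 := (hxR.ap (hu.2.2 μ hμ))
  rw [hfin] at h3
  have h4 := inR_diag hM (h3.smul (inv_mem_cir hε)) (hdc b⁻¹ (inv_mem_cir hb')) (by simp [Ne.symm hio])
  convert h4 using 1
  funext l
  rw [Pi.smul_apply, Pi.smul_apply, smul_eq_mul, smul_eq_mul,
    inv_mul_cancel_left₀ (ne_zero_of_mem_cir hε)]
  by_cases h1 : l = i
  · subst h1; simp [hy, inv_mul_cancel_left₀ (ne_zero_of_mem_cir hb')]
  · simp [hy, h1]

omit hσ in
/-- Permuted coordinates. -/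
lemma inR_perm {k : ℕ} {f g : Fin k → ι} (hf : Function.Injective f) (hg : Function.Injective g)
    {u : ι → F} (hu : InR σ X o u) (hsu : ∀ l, u l ≠ 0 ↔ ∃ s, f s = l) (hgo : ∀ s, g s ≠ o) :
    ∃ v, InR σ X o v ∧ (∀ l, v l ≠ 0 ↔ ∃ s, g s = l) ∧ ∀ s, v (g s) = u (f s) := by
  have hfo : ∀ s, f s ≠ o := fun s e => (hsu o).mpr ⟨s, e⟩ hu.2.1
  obtain ⟨π, hπ, hπf⟩ := exists_perm f g hf hg hfo hgo
  refine ⟨_, hu.moved hM (π := π) hπ (d := fun _ => 1) (fun _ => one_mem_cir) rfl, fun l => ?_,
    fun s => ?_⟩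
  · rw [one_mul, hsu]
    exact exists_congr fun s => by rw [Equiv.eq_symm_apply, hπf]
  · rw [one_mul, ← hπf, Equiv.symm_apply_apply]

end Plane

end CfsgLib.UMon
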